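/-
Generation of fixed points by commutators (Goldschmidt): norm lemmas, the module lemma and the
bilinear lemma, towards S1329.
-/
import Cfsg.Agent.Lib.Coprime.Abelian
import Cfsg.Agent.Lib.Coprime.Generation2

set_option autoImplicit false

namespace Cfsg.Agent.Lib.GoldGen

open Subgroup Cfsg.Agent.Lib.Coprime.Action Cfsg.Agent.Lib.Coprime.Abelian
  Cfsg.Agent.Lib.Coprime.Generation Cfsg.Agent.Lib.Coprime.Generation2
open scoped commutatorElement IsMulCommutative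

universe u

variable {G : Type u} [Group G] [Finite G]

section Norm

variable {A B V W : Subgroup G} [IsMulCommutative V]

theorem norm_norm (hAV : A ≤ normalizer (V : Set G)) (hBA : B ≤ A) (z : V) :
    norm A V hAV (norm B V (hBA.trans hAV) z) = (norm A V hAV z) ^ Nat.card B := by
  classical
  have := Fintype.ofFinite B
  rw [norm_apply_coe_eq (A := B), map_prod]
  have h : ∀ b : B, norm A V hAV ⟨(b : G) * z * (b : G)⁻¹,
      conj_mem_of_le_normalizer (hBA.trans hAV) b.2 z.2⟩ = norm A V hAV z :=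
    fun b => norm_conj hAV z (hBA b.2)
  rw [Finset.prod_congr rfl (fun b _ => h b), Finset.prod_const, Finset.card_univ,
    Nat.card_eq_fintype_card]

theorem norm_mem_of_mem (hAV : A ≤ normalizer (V : Set G)) (hAW : A ≤ normalizer (W : Set G))
    (t : V) (ht : (t : G) ∈ W) : (norm A V hAV t : G) ∈ W := by
  classical
  have := Fintype.ofFinite A
  rw [norm_apply_coe_eq]
  have : (∏ a : A, (⟨(a : G) * t * (a : G)⁻¹, conj_mem_of_le_normalizer hAV a.2 t.2⟩ : V)) ∈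
      W.subgroupOf V := Subgroup.prod_mem _ (fun a _ => by
    show (a : G) * t * (a : G)⁻¹ ∈ W
    exact conj_mem_of_le_normalizer hAW a.2 ht)
  exact this

theorem norm_conj_comm (hBV : B ≤ normalizer (V : Set G)) {g : G}
    (hgV : g ∈ normalizer (V : Set G)) (hgB : ∀ b ∈ B, b * g = g * b) (v : V) :
    (norm B V hBV ⟨g * v * g⁻¹, (Subgroup.le_normalizer_iff.mp (zpowers_le.mpr hgV)) g
      (mem_zpowers g) v v.2⟩ : G) = g * norm B V hBV v * g⁻¹ := by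
  classical
  have := Fintype.ofFinite B
  have hc : ∀ w : V, g * (w : G) * g⁻¹ ∈ V := fun w =>
    (Subgroup.le_normalizer_iff.mp (zpowers_le.mpr hgV)) g (mem_zpowers g) w w.2
  let φ : V →* V :=
    { toFun := fun w => ⟨g * (w : G) * g⁻¹, hc w⟩
      map_one' := by
        apply Subtype.ext
        simp
      map_mul' := by
        intro x y
        apply Subtype.ext
        simp [mul_assoc] }
  have h1 : norm B V hBV (φ v) = φ (norm B V hBV v) := by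
    rw [norm_apply_coe_eq, norm_apply_coe_eq, map_prod]
    apply Finset.prod_congr rfl
    intro b _
    apply Subtype.ext
    have hb := hgB b b.2
    have hb' : (b : G)⁻¹ * g = g * (b : G)⁻¹ := by
      calc (b : G)⁻¹ * g = (b : G)⁻¹ * (g * b) * (b : G)⁻¹ := by group
        _ = (b : G)⁻¹ * (b * g) * (b : G)⁻¹ := by rw [hb]
        _ = g * (b : G)⁻¹ := by group
    show (b : G) * (g * v * g⁻¹) * (b : G)⁻¹ = g * ((b : G) * v * (b : G)⁻¹) * g⁻¹
    have hgi : (b : G)⁻¹ * g⁻¹ = g⁻¹ * (b : G)⁻¹ := by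
      calc (b : G)⁻¹ * g⁻¹ = (g * b)⁻¹ := by group
        _ = (b * g)⁻¹ := by rw [hb]
        _ = g⁻¹ * (b : G)⁻¹ := by group
    calc (b : G) * (g * v * g⁻¹) * (b : G)⁻¹ = ((b : G) * g) * v * (g⁻¹ * (b : G)⁻¹) := by group
      _ = (g * b) * v * ((b : G)⁻¹ * g⁻¹) := by rw [hb, hgi]
      _ = g * ((b : G) * v * (b : G)⁻¹) * g⁻¹ := by group
  exact congrArg Subtype.val h1

end Norm

theorem mem_of_pow_mem {D Y : Subgroup G} {x : G} (hx : x ∈ Y) {k : ℕ}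
    (hk : k.Coprime (Nat.card Y)) (hxk : x ^ k ∈ D) : x ∈ D := by
  obtain ⟨m, hm⟩ := exists_pow_eq_self_of_coprime (x := (⟨x, hx⟩ : Y)) (n := k)
    (Nat.Coprime.coprime_dvd_right (orderOf_dvd_natCard _) hk)
  have h1 : (x ^ k) ^ m = x := by
    have := congrArg Subtype.val hm
    simpa using this
  rw [← h1]
  exact D.pow_mem hxk m

/-- The cocyclic subgroups of `A`. -/
def Cocyc (A : Subgroup G) : Set (Subgroup G) :=
  {B : Subgroup G | B ≤ A ∧ ∃ a ∈ A, B ⊔ Subgroup.zpowers a = A}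

/-- The subgroup generated by the fixed points inside commutators of centralizers of cocyclic
subgroups. -/
noncomputable def DD (A Y : Subgroup G) : Subgroup G :=
  ⨆ B ∈ Cocyc A, (Y ⊓ centralizer (A : Set G)) ⊓ ⁅Y ⊓ centralizer (B : Set G), A⁆

theorem mem_DD_of_mem {A Y B : Subgroup G} (hB : B ∈ Cocyc A) {c : G} (hcY : c ∈ Y)
    (hcA : c ∈ centralizer (A : Set G)) (hc : c ∈ ⁅Y ⊓ centralizer (B : Set G), A⁆) :
    c ∈ DD A Y :=
  (le_iSup₂_of_le B hB le_rfl :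
    (Y ⊓ centralizer (A : Set G)) ⊓ ⁅Y ⊓ centralizer (B : Set G), A⁆ ≤ DD A Y) ⟨⟨hcY, hcA⟩, hc⟩

theorem DD_le (A Y : Subgroup G) : DD A Y ≤ Y ⊓ centralizer (A : Set G) :=
  iSup₂_le (fun _ _ => inf_le_left)

/-- `A`-invariance of fixed points of subgroups of the abelian group `A`. -/
theorem le_normalizer_inf_centralizer {A B Y : Subgroup G} [IsMulCommutative A]
    (hAY : A ≤ normalizer (Y : Set G)) (hBA : B ≤ A) :
    A ≤ normalizer ((Y ⊓ centralizer (B : Set G) : Subgroup G) : Set G) := by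
  rw [Subgroup.le_normalizer_iff]
  rintro a ha y ⟨hy1, hy2⟩
  refine ⟨conj_mem_of_le_normalizer hAY ha hy1, ?_⟩
  refine Subgroup.mem_centralizer_iff.2 ?_
  intro b hb
  have hy3 := Subgroup.mem_centralizer_iff.1 hy2 b hb
  have hab : a * b = b * a := congrArg Subtype.val (mul_comm' (⟨a, ha⟩ : A) (⟨b, hBA hb⟩ : A))
  have hab' : a⁻¹ * b = b * a⁻¹ := by
    calc a⁻¹ * b = a⁻¹ * (b * a) * a⁻¹ := by group
      _ = a⁻¹ * (a * b) * a⁻¹ := by rw [hab]
      _ = b * a⁻¹ := by group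
  calc b * (a * y * a⁻¹) = (b * a) * y * a⁻¹ := by group
    _ = a * (b * y) * a⁻¹ := by rw [← hab]; group
    _ = a * (y * b) * a⁻¹ := by rw [hy3]
    _ = a * y * (b * a⁻¹) := by group
    _ = a * y * (a⁻¹ * b) := by rw [hab']
    _ = (a * y * a⁻¹) * b := by group

/-- The subgroup of an abelian `M` of the elements whose `A`-norm lies in `D`. -/
noncomputable def Uu (A M D : Subgroup G) [IsMulCommutative M]
    (hAM : A ≤ normalizer (M : Set G)) : Subgroup G :=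
  ((D.subgroupOf M).comap (norm A M hAM)).map M.subtype

section Uu

variable {A M D : Subgroup G} [IsMulCommutative M] (hAM : A ≤ normalizer (M : Set G))

theorem mem_Uu_iff {z : G} : z ∈ Uu A M D hAM ↔ ∃ hz : z ∈ M, (norm A M hAM ⟨z, hz⟩ : G) ∈ D := by
  constructor
  · rintro ⟨w, hw, rfl⟩
    exact ⟨w.2, hw⟩
  · rintro ⟨hz, h⟩
    exact ⟨⟨z, hz⟩, h, rfl⟩

theorem mem_of_mem_Uu {Y : Subgroup G} (hMY : M ≤ Y) (hcop : (Nat.card A).Coprime (Nat.card Y))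
    {c : G} (hcU : c ∈ Uu A M D hAM) (hcA : c ∈ centralizer (A : Set G)) : c ∈ D := by
  obtain ⟨hc, h⟩ := (mem_Uu_iff hAM).1 hcU
  rw [norm_of_mem_centralizer hAM _ hcA] at h
  exact mem_of_pow_mem (hMY hc) hcop (by simpa using h)

end Uu

section Setting

variable {A Y : Subgroup G} [IsMulCommutative A]

/-- The key point: if the `B`-norm of `z` lies in `[C_Y(B), A]`, `B` cocyclic, then the `A`-norm
of `z` lies in `DD A Y`. -/
theorem norm_mem_DD_of_rel {M B : Subgroup G} [IsMulCommutative M]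
    (hAY : A ≤ normalizer (Y : Set G)) (hcop : (Nat.card A).Coprime (Nat.card Y))
    (hMY : M ≤ Y) (hAM : A ≤ normalizer (M : Set G)) (hB : B ∈ Cocyc A) (z : M)
    (h : (norm B M (hB.1.trans hAM) z : G) ∈ ⁅Y ⊓ centralizer (B : Set G), A⁆) :
    (norm A M hAM z : G) ∈ DD A Y := by
  have hAH : A ≤ normalizer ((⁅Y ⊓ centralizer (B : Set G), A⁆ : Subgroup G) : Set G) :=
    le_normalizer_commutator_right _ _
  have h1 := norm_mem_of_mem hAM hAH _ h
  have h2 : (norm A M hAM (norm B M (hB.1.trans hAM) z) : G) ∈ DD A Y :=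
    mem_DD_of_mem hB (hMY (Subtype.coe_prop _)) (norm_mem_centralizer hAM _) h1
  rw [norm_norm hAM hB.1] at h2
  refine mem_of_pow_mem (hMY (Subtype.coe_prop _)) (Nat.Coprime.coprime_dvd_left
    (Subgroup.card_dvd_of_le hB.1) hcop) ?_
  simpa using h2

/-- **The module lemma.** -/
theorem module_lemma {M : Subgroup G} [IsMulCommutative M]
    (hAY : A ≤ normalizer (Y : Set G)) (hcop : (Nat.card A).Coprime (Nat.card Y))
    (hYA : ⁅Y, A⁆ = Y) (hMY : M ≤ Y) (hYM : Y ≤ normalizer (M : Set G))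
    (hAM : A ≤ normalizer (M : Set G)) :
    (Y ⊓ centralizer (A : Set G)) ⊓ ⁅M, Y⁆ ≤ DD A Y := by
  classical
  set U := Uu A M (DD A Y) hAM with hU
  have hUle : ∀ {z : G}, z ∈ U → z ∈ M := fun hz => ((mem_Uu_iff hAM).1 hz).1
  let S₀ : Subgroup G :=
    { carrier := {y | y ∈ Y ∧ ∀ m ∈ M, m⁻¹ * (y⁻¹ * m * y) ∈ U}
      mul_mem' := by
        rintro y₁ y₂ ⟨h1, h1'⟩ ⟨h2, h2'⟩
        refine ⟨Y.mul_mem h1 h2, fun m hm => ?_⟩
        have hn : y₁⁻¹ * m * y₁ ∈ M := inv_conj_mem_of_le_normalizer hYM h1 hm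
        have := U.mul_mem (h1' m hm) (h2' _ hn)
        convert this using 1
        group
      one_mem' := by
        refine ⟨Y.one_mem, fun m _ => ?_⟩
        simp [U.one_mem]
      inv_mem' := by
        rintro y ⟨h1, h1'⟩
        refine ⟨Y.inv_mem h1, fun m hm => ?_⟩
        have hn : y * m * y⁻¹ ∈ M := conj_mem_of_le_normalizer hYM h1 hm
        have := U.inv_mem (h1' _ hn)
        convert this using 1
        group }
  have hYS : Y ≤ S₀ := by
    calc Y = ⁅Y, A⁆ := hYA.symm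
      _ = ⨆ B ∈ {B : Subgroup G | B ≤ A ∧ ∃ a ∈ A, B ⊔ Subgroup.zpowers a = A},
          ⁅Y ⊓ centralizer (B : Set G), A⁆ := (iSup_commutator_cocyclic_eq hAY hcop).symm
      _ ≤ S₀ := ?_
    refine iSup₂_le ?_
    intro B hB h hh
    have hAX := le_normalizer_inf_centralizer hAY hB.1
    have hhX : h ∈ Y ⊓ centralizer (B : Set G) := commutator_le_of_le_normalizer hAX hh
    refine ⟨hhX.1, fun m hm => ?_⟩
    have hBh : ∀ b ∈ B, b * h⁻¹ = h⁻¹ * b := by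
      intro b hb
      have := Subgroup.mem_centralizer_iff.1 hhX.2 b hb
      calc b * h⁻¹ = h⁻¹ * (h * b) * h⁻¹ := by group
        _ = h⁻¹ * (b * h) * h⁻¹ := by rw [this]
        _ = h⁻¹ * b := by group
    have hhn : h⁻¹ ∈ normalizer (M : Set G) := hYM (Y.inv_mem hhX.1)
    have hz : m⁻¹ * (h⁻¹ * m * h) ∈ M := M.mul_mem (M.inv_mem hm)
      (inv_conj_mem_of_le_normalizer hYM hhX.1 hm)
    refine (mem_Uu_iff hAM).2 ⟨hz, norm_mem_DD_of_rel hAY hcop hMY hAM hB ⟨_, hz⟩ ?_⟩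
    -- compute the `B`-norm
    have hBM := hB.1.trans hAM
    set n := norm B M hBM ⟨m, hm⟩ with hn
    have hnX : (n : G) ∈ Y ⊓ centralizer (B : Set G) :=
      ⟨hMY n.2, norm_mem_centralizer hBM _⟩
    have e1 : (⟨m⁻¹ * (h⁻¹ * m * h), hz⟩ : M) = (⟨m, hm⟩ : M)⁻¹ *
        ⟨h⁻¹ * m * h⁻¹⁻¹, by simpa using inv_conj_mem_of_le_normalizer hYM hhX.1 hm⟩ := by
      apply Subtype.ext
      simp
    have e2 := norm_conj_comm hBM hhn hBh (⟨m, hm⟩ : M)
    rw [e1, map_mul, map_inv]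
    have hkey : (((norm B M hBM ⟨m, hm⟩)⁻¹ * norm B M hBM
        ⟨h⁻¹ * m * h⁻¹⁻¹, by simpa using inv_conj_mem_of_le_normalizer hYM hhX.1 hm⟩ : M) : G) =
        (n : G)⁻¹ * h⁻¹ * n * h := by
      show (n : G)⁻¹ * (norm B M hBM _ : G) = _
      have := e2
      rw [show (norm B M hBM _ : G) = h⁻¹ * n * h⁻¹⁻¹ from e2]
      group
    rw [hkey]
    have h1 : (n : G)⁻¹ * h⁻¹ * n ∈ ⁅Y ⊓ centralizer (B : Set G), A⁆ := by
      have := inv_conj_mem_of_le_normalizer (le_normalizer_commutator_left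
        (Y ⊓ centralizer (B : Set G)) A) hnX (Subgroup.inv_mem _ hh)
      exact this
    exact Subgroup.mul_mem _ h1 hh
  have hMYU : ⁅M, Y⁆ ≤ U := by
    rw [Subgroup.commutator_le]
    intro m hm y hy
    have h := (hYS (Y.inv_mem hy)).2 _ (M.inv_mem hm)
    have e : ⁅m, y⁆ = m⁻¹⁻¹ * (y⁻¹⁻¹ * m⁻¹ * y⁻¹) := by
      rw [commutatorElement_def]
      group
    rw [e]
    exact h
  rintro c ⟨⟨hcY, hcA⟩, hcM⟩
  exact mem_of_mem_Uu hAM hMY hcop (hMYU hcM) hcA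

/-- For `K` of class at most two and `x ∈ K`, the map `k ↦ ⁅x, k⁆` is a homomorphism. -/
def commHom {K : Subgroup G} (hcent : ∀ t ∈ (⁅K, K⁆ : Subgroup G), ∀ k ∈ K, t * k = k * t)
    {x : G} (hx : x ∈ K) : K →* (⁅K, K⁆ : Subgroup G) where
  toFun k := ⟨⁅x, (k : G)⁆, Subgroup.commutator_mem_commutator hx k.2⟩
  map_one' := by
    apply Subtype.ext
    simp
  map_mul' := by
    intro k₁ k₂
    apply Subtype.ext
    show ⁅x, (k₁ : G) * k₂⁆ = ⁅x, (k₁ : G)⁆ * ⁅x, (k₂ : G)⁆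
    have h := hcent _ (Subgroup.commutator_mem_commutator hx k₂.2) _ k₁.2
    simp only [commutatorElement_def] at h ⊢
    calc x * (↑k₁ * ↑k₂) * x⁻¹ * (↑k₁ * ↑k₂)⁻¹
        = x * k₁ * x⁻¹ * (x * k₂ * x⁻¹ * (k₂ : G)⁻¹) * (k₁ : G)⁻¹ := by group
      _ = x * k₁ * x⁻¹ * ((k₁ : G)⁻¹ * ((k₁ : G) * (x * k₂ * x⁻¹ * (k₂ : G)⁻¹))) * (k₁ : G)⁻¹ := by
        group
      _ = x * k₁ * x⁻¹ * ((k₁ : G)⁻¹ * ((x * k₂ * x⁻¹ * (k₂ : G)⁻¹) * (k₁ : G))) * (k₁ : G)⁻¹ := by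
        rw [h]
      _ = x * ↑k₁ * x⁻¹ * (↑k₁)⁻¹ * (x * ↑k₂ * x⁻¹ * (↑k₂)⁻¹) := by group

theorem commHom_coe {K : Subgroup G} (hcent : ∀ t ∈ (⁅K, K⁆ : Subgroup G), ∀ k ∈ K, t * k = k * t)
    {x : G} (hx : x ∈ K) (k : K) : (commHom hcent hx k : G) = ⁅x, (k : G)⁆ := rfl

/-- The `B`-norm of a commutator `⁅x, y⁆` in a group of class two with `x` fixed by `B` is a
commutator `⁅x, y₀⁆` with `y₀` fixed by `B`. -/
theorem exists_norm_comm_eq {B K : Subgroup G} [IsMulCommutative (⁅K, K⁆ : Subgroup G)]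
    (hcent : ∀ t ∈ (⁅K, K⁆ : Subgroup G), ∀ k ∈ K, t * k = k * t)
    (hBK : B ≤ normalizer (K : Set G))
    (hBT : B ≤ normalizer ((⁅K, K⁆ : Subgroup G) : Set G))
    (hcop : (Nat.card B).Coprime (Nat.card K)) (hsolv : Group.IsSolvable B)
    {x y : G} (hx : x ∈ K) (hxB : ∀ b ∈ B, b * x = x * b) (hy : y ∈ K) :
    ∃ y₀ ∈ K ⊓ centralizer (B : Set G),
      (norm B (⁅K, K⁆ : Subgroup G) hBT ⟨⁅x, y⁆, Subgroup.commutator_mem_commutator hx hy⟩ : G) =
        ⁅x, y₀⁆ := by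
  classical
  have := Fintype.ofFinite B
  set φ := commHom hcent hx with hφ
  have hconj : ∀ b ∈ B, ∀ k : G, b * ⁅x, k⁆ * b⁻¹ = ⁅x, b * k * b⁻¹⁆ := by
    intro b hb k
    have h := hxB b hb
    have h' : x⁻¹ * b⁻¹ = b⁻¹ * x⁻¹ := by
      calc x⁻¹ * b⁻¹ = (b * x)⁻¹ := by group
        _ = (x * b)⁻¹ := by rw [h]
        _ = b⁻¹ * x⁻¹ := by group
    simp only [commutatorElement_def]
    calc b * (x * k * x⁻¹ * k⁻¹) * b⁻¹ = (b * x) * k * (x⁻¹ * k⁻¹ * b⁻¹) := by group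
      _ = (x * b) * k * (x⁻¹ * k⁻¹ * b⁻¹) := by rw [h]
      _ = x * (b * k * b⁻¹) * (b * x⁻¹ * k⁻¹ * b⁻¹) := by group
      _ = x * (b * k * b⁻¹) * (b * (x⁻¹ * b⁻¹) * (b * k⁻¹ * b⁻¹)) := by group
      _ = x * (b * k * b⁻¹) * (b * (b⁻¹ * x⁻¹) * (b * k⁻¹ * b⁻¹)) := by rw [h']
      _ = x * (b * k * b⁻¹) * x⁻¹ * (b * k * b⁻¹)⁻¹ := by group
  -- the norm is in the range of `φ`
  obtain ⟨k, hk⟩ : norm B (⁅K, K⁆ : Subgroup G) hBT ⟨⁅x, y⁆,
      Subgroup.commutator_mem_commutator hx hy⟩ ∈ φ.range := by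
    rw [norm_apply_coe_eq]
    refine Subgroup.prod_mem _ (fun b _ => ?_)
    refine ⟨⟨(b : G) * y * (b : G)⁻¹, conj_mem_of_le_normalizer hBK b.2 hy⟩, ?_⟩
    apply Subtype.ext
    exact (hconj b b.2 y).symm
  -- the image of `k` is fixed by `B`
  have hfixed : ∀ b ∈ B, ⁅x, b * (k : G) * b⁻¹⁆ = ⁅x, (k : G)⁆ := by
    intro b hb
    rw [← hconj b hb]
    have h1 := conj_norm hBT (⟨⁅x, y⁆, Subgroup.commutator_mem_commutator hx hy⟩ :
      (⁅K, K⁆ : Subgroup G)) hb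
    rw [← hk] at h1
    exact h1
  let L : Subgroup G := φ.ker.map K.subtype
  have hLmem : ∀ {l : G} (hl : l ∈ K), l ∈ L ↔ ⁅x, l⁆ = 1 := by
    intro l hl
    constructor
    · rintro ⟨w, hw, rfl⟩
      exact congrArg Subtype.val hw
    · intro h
      refine ⟨⟨l, hl⟩, ?_, rfl⟩
      show φ ⟨l, hl⟩ = 1
      exact Subtype.ext h
  have hLK : L ≤ K := Subgroup.map_subtype_le _
  have hKL : K ≤ normalizer (L : Set G) := by
    rw [Subgroup.le_normalizer_iff]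
    rintro g hg _ ⟨w, hw, rfl⟩
    refine ⟨⟨g, hg⟩ * w * ⟨g, hg⟩⁻¹, ?_, rfl⟩
    have hw' : φ w = 1 := hw
    show φ _ = 1
    rw [map_mul, map_mul, hw', mul_one, map_inv, mul_inv_cancel]
  have hBL : B ≤ normalizer (L : Set G) := by
    rw [Subgroup.le_normalizer_iff]
    rintro b hb _ ⟨w, hw, rfl⟩
    have hwK : b * (w : G) * b⁻¹ ∈ K := conj_mem_of_le_normalizer hBK hb w.2
    refine (hLmem hwK).2 ?_
    rw [← hconj b hb]
    have : ⁅x, (w : G)⁆ = 1 := congrArg Subtype.val hw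
    show b * ⁅x, (w : G)⁆ * b⁻¹ = 1
    rw [this]
    group
  have hfix : ∀ b ∈ B, b * (k : G) * b⁻¹ * (k : G)⁻¹ ∈ L := by
    intro b hb
    have hbk : b * (k : G) * b⁻¹ ∈ K := conj_mem_of_le_normalizer hBK hb k.2
    refine (hLmem (K.mul_mem hbk (K.inv_mem k.2))).2 ?_
    have h1 : φ ⟨b * (k : G) * b⁻¹, hbk⟩ = φ k := Subtype.ext (hfixed b hb)
    have h2 : φ (⟨b * (k : G) * b⁻¹, hbk⟩ * k⁻¹) = 1 := by
      rw [map_mul, map_inv, h1, mul_inv_cancel]
    exact congrArg Subtype.val h2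
  obtain ⟨c, hc, hkc⟩ := exists_fixed_of_fixed_mod L hBK hcop (Or.inl hsolv) hLK hKL hBL k.2 hfix
  refine ⟨c, hc, ?_⟩
  rw [← hk]
  have hcK : c ∈ K := hc.1
  have h3 : ⁅x, (k : G)⁻¹ * c⁆ = 1 := (hLmem (K.mul_mem (K.inv_mem k.2) hcK)).1 hkc
  have h4 : φ (k⁻¹ * ⟨c, hcK⟩) = 1 := Subtype.ext h3
  rw [map_mul, map_inv, inv_mul_eq_one] at h4
  exact congrArg Subtype.val h4

/-- **The bilinear lemma.** -/
theorem bilinear_lemma {K : Subgroup G}
    (hAY : A ≤ normalizer (Y : Set G)) (hcop : (Nat.card A).Coprime (Nat.card Y))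
    (hKY : K ≤ Y) (hAK : A ≤ normalizer (K : Set G))
    (hcent : ∀ t ∈ (⁅K, K⁆ : Subgroup G), ∀ k ∈ K, t * k = k * t)
    (hCC : ∀ c₁ ∈ Y ⊓ centralizer (A : Set G), ∀ c₂ ∈ Y ⊓ centralizer (A : Set G),
      ⁅c₁, c₂⁆ ∈ DD A Y) :
    (Y ⊓ centralizer (A : Set G)) ⊓ ⁅K, K⁆ ≤ DD A Y := by
  classical
  have hTK : (⁅K, K⁆ : Subgroup G) ≤ K := Subgroup.commutator_le_self K
  haveI : IsMulCommutative (⁅K, K⁆ : Subgroup G) := by
    refine ⟨⟨fun a b => ?_⟩⟩
    apply Subtype.ext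
    exact hcent a a.2 b (hTK b.2)
  have hAT : A ≤ normalizer ((⁅K, K⁆ : Subgroup G) : Set G) :=
    le_normalizer_commutator_of_le hAK hAK
  have hTY : (⁅K, K⁆ : Subgroup G) ≤ Y := hTK.trans hKY
  have hcopK : (Nat.card A).Coprime (Nat.card K) :=
    Nat.Coprime.coprime_dvd_right (Subgroup.card_dvd_of_le hKY) hcop
  have hAcomm : ∀ a ∈ A, ∀ b ∈ A, a * b = b * a := fun a ha b hb =>
    congrArg Subtype.val (mul_comm' (⟨a, ha⟩ : A) (⟨b, hb⟩ : A))
  have hsolv : ∀ B : Subgroup G, B ≤ A → Group.IsSolvable B := by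
    intro B hB
    exact Group.isSolvable_of_comm (fun a b => Subtype.ext (hAcomm a (hB a.2) b (hB b.2)))
  set U := Uu A (⁅K, K⁆ : Subgroup G) (DD A Y) hAT with hU
  let Q : Subgroup G :=
    { carrier := {x | x ∈ K ∧ ∀ y ∈ K, ⁅x, y⁆ ∈ U}
      mul_mem' := by
        rintro x₁ x₂ ⟨h1, h1'⟩ ⟨h2, h2'⟩
        refine ⟨K.mul_mem h1 h2, fun y hy => ?_⟩
        have h := hcent _ (Subgroup.commutator_mem_commutator h2 hy) _ h1
        have e : ⁅x₁ * x₂, y⁆ = ⁅x₂, y⁆ * ⁅x₁, y⁆ := by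
          calc ⁅x₁ * x₂, y⁆ = x₁ * ⁅x₂, y⁆ * x₁⁻¹ * ⁅x₁, y⁆ := by
                simp only [commutatorElement_def]; group
            _ = (⁅x₂, y⁆ * x₁) * x₁⁻¹ * ⁅x₁, y⁆ := by rw [← h]
            _ = ⁅x₂, y⁆ * ⁅x₁, y⁆ := by group
        rw [e]
        exact U.mul_mem (h2' y hy) (h1' y hy)
      one_mem' := by
        refine ⟨K.one_mem, fun y _ => ?_⟩
        simp [U.one_mem]
      inv_mem' := by
        rintro x ⟨h1, h1'⟩
        refine ⟨K.inv_mem h1, fun y hy => ?_⟩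
        have h := hcent _ (Subgroup.commutator_mem_commutator h1 hy) _ (K.inv_mem h1)
        have e : ⁅x⁻¹, y⁆ = ⁅x, y⁆⁻¹ := by
          calc ⁅x⁻¹, y⁆ = x⁻¹ * ⁅x, y⁆⁻¹ * x := by
                simp only [commutatorElement_def]; group
            _ = x⁻¹ * ⁅x, y⁆⁻¹ * x⁻¹⁻¹ := by rw [inv_inv]
            _ = ⁅x, y⁆⁻¹ := by
                have h' : x⁻¹ * ⁅x, y⁆⁻¹ = ⁅x, y⁆⁻¹ * x⁻¹ := by
                  calc x⁻¹ * ⁅x, y⁆⁻¹ = (⁅x, y⁆ * x)⁻¹ := by group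
                    _ = (x * ⁅x, y⁆)⁻¹ := by
                        congr 1
                        have := hcent _ (Subgroup.commutator_mem_commutator h1 hy) _ h1
                        exact this
                    _ = ⁅x, y⁆⁻¹ * x⁻¹ := by group
                rw [h']
                group
        rw [e]
        exact U.inv_mem (h1' y hy) }
  have hKQ : K ≤ Q := by
    calc K = _ := (iSup_cocyclic_eq hAK hcopK).symm
      _ ≤ Q := ?_
    refine iSup₂_le ?_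
    intro B hB
    have hBK := hB.1.trans hAK
    have hBT := hB.1.trans hAT
    have hXA := le_normalizer_inf_centralizer (B := B) hAK hB.1
    have hfac := commutator_sup_fixed hXA
      (Nat.Coprime.coprime_dvd_right (Subgroup.card_dvd_of_le inf_le_left) hcopK)
      (Or.inl (hsolv A le_rfl))
    rw [← hfac]
    refine sup_le ?_ ?_
    · -- the commutator part
      intro x hx
      have hxX : x ∈ K ⊓ centralizer (B : Set G) := commutator_le_of_le_normalizer hXA hx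
      have hxH : x ∈ ⁅Y ⊓ centralizer (B : Set G), A⁆ :=
        Subgroup.commutator_mono (inf_le_inf_right _ hKY) le_rfl hx
      refine ⟨hxX.1, fun y hy => ?_⟩
      have hxB : ∀ b ∈ B, b * x = x * b := fun b hb => Subgroup.mem_centralizer_iff.1 hxX.2 b hb
      obtain ⟨y₀, hy₀, hnorm⟩ := exists_norm_comm_eq hcent hBK hBT
        (Nat.Coprime.coprime_dvd_left (Subgroup.card_dvd_of_le hB.1) hcopK)
        (hsolv B hB.1) hxX.1 hxB hy
      refine (mem_Uu_iff hAT).2 ⟨Subgroup.commutator_mem_commutator hxX.1 hy, ?_⟩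
      refine norm_mem_DD_of_rel hAY hcop hTY hAT hB _ ?_
      rw [hnorm, commutatorElement_def, mul_assoc, mul_assoc]
      refine Subgroup.mul_mem _ hxH ?_
      rw [← mul_assoc]
      exact conj_mem_of_le_normalizer (le_normalizer_commutator_left _ _)
        (show y₀ ∈ Y ⊓ centralizer (B : Set G) from ⟨hKY hy₀.1, hy₀.2⟩) (Subgroup.inv_mem _ hxH)
    · -- the fixed part
      rintro x ⟨⟨hx1, hx2⟩, hx3⟩
      refine ⟨hx1, fun y hy => ?_⟩
      have hxB : ∀ b ∈ A, b * x = x * b := fun b hb => Subgroup.mem_centralizer_iff.1 hx3 b hb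
      obtain ⟨y₀, hy₀, hnorm⟩ := exists_norm_comm_eq hcent hAK hAT hcopK (hsolv A le_rfl) hx1 hxB hy
      refine (mem_Uu_iff hAT).2 ⟨Subgroup.commutator_mem_commutator hx1 hy, ?_⟩
      rw [hnorm]
      exact hCC x ⟨hKY hx1, hx3⟩ y₀ ⟨hKY hy₀.1, hy₀.2⟩
  have hTU : (⁅K, K⁆ : Subgroup G) ≤ U := by
    rw [Subgroup.commutator_le]
    intro k₁ hk₁ k₂ hk₂
    exact (hKQ hk₁).2 k₂ hk₂
  rintro c ⟨⟨hcY, hcA⟩, hcT⟩
  exact mem_of_mem_Uu hAT hTY hcop (hTU hcT) hcA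

end Setting

end Cfsg.Agent.Lib.GoldGen
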