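/-
Generation of fixed points by commutators (Goldschmidt), towards S1329: the induction.
-/
import Cfsg.Agent.Lib.GoldGen.Basic

set_option autoImplicit false

namespace Cfsg.Agent.Lib.GoldGen

open Subgroup Cfsg.Agent.Lib.Coprime.Action Cfsg.Agent.Lib.Coprime.Abelian
  Cfsg.Agent.Lib.Coprime.Generation Cfsg.Agent.Lib.Coprime.Generation2
open scoped commutatorElement IsMulCommutative

universe u

section Quot

variable {G : Type u} [Group G] [Finite G]

theorem comm_lt {K : Subgroup G} (h : Group.IsSolvable K) (hne : K ≠ ⊥) : ⁅K, K⁆ < K := by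
  rw [← nontrivial_iff_ne_bot] at hne
  rw [← K.range_subtype, MonoidHom.range_eq_map, ← map_commutator, map_subtype_lt_map_subtype]
  exact Group.IsSolvable.commutator_lt_top_of_nontrivial K

/-- Every element of `DD` upstairs comes from `DD` downstairs. -/
theorem DD_map_le {A Y N₁ : Subgroup G} [IsMulCommutative A] [N₁.Normal]
    (hAY : A ≤ normalizer (Y : Set G)) (hcop : (Nat.card A).Coprime (Nat.card Y))
    (hN₁Y : N₁ ≤ Y) :
    DD (A.map (QuotientGroup.mk' N₁)) (Y.map (QuotientGroup.mk' N₁)) ≤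
      (DD A Y).map (QuotientGroup.mk' N₁) := by
  set π : G →* G ⧸ N₁ := QuotientGroup.mk' N₁ with hπ
  have hπker : ∀ {x : G}, π x = 1 ↔ x ∈ N₁ := fun {x} => QuotientGroup.eq_one_iff x
  have hAcomm : ∀ a ∈ A, ∀ b ∈ A, a * b = b * a := fun a ha b hb =>
    congrArg Subtype.val (mul_comm' (⟨a, ha⟩ : A) (⟨b, hb⟩ : A))
  have hAsolv : Group.IsSolvable A :=
    Group.isSolvable_of_comm (fun a b => Subtype.ext (hAcomm a a.2 b b.2))
  have hN₁norm : ∀ {T : Subgroup G}, T ≤ normalizer (N₁ : Set G) := fun {T} => by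
    rw [normalizer_eq_top]
    exact le_top
  refine iSup₂_le ?_
  rintro Ā₀ ⟨hle, ā, hā, hsup⟩
  obtain ⟨a, ha, rfl⟩ := hā
  -- the preimage
  set A₀ : Subgroup G := A ⊓ Ā₀.comap π with hA₀
  have hA₀le : A₀ ≤ A := inf_le_left
  have hĀcomm : ∀ x ∈ A.map π, ∀ y ∈ A.map π, x * y = y * x := by
    rintro _ ⟨x, hx, rfl⟩ _ ⟨y, hy, rfl⟩
    rw [← map_mul, ← map_mul, hAcomm x hx y hy]
  have hA₀C : A₀ ∈ Cocyc A := by
    refine ⟨hA₀le, a, ha, le_antisymm (sup_le hA₀le (zpowers_le.2 ha)) ?_⟩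
    intro x hx
    have hnorm : Subgroup.zpowers (π a) ≤ normalizer (Ā₀ : Set (G ⧸ N₁)) := by
      rw [zpowers_le, mem_normalizer_iff]
      intro u
      have hāmem : π a ∈ A.map π := mem_map_of_mem π ha
      constructor
      · intro hu
        have := hĀcomm _ hāmem _ (hle hu)
        rw [this]
        simpa using hu
      · intro hu
        have h2 : π a * u * (π a)⁻¹ ∈ A.map π := by
          have := hle hu
          exact this
        have hu' : u ∈ A.map π := by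
          have h3 := (A.map π).mul_mem ((A.map π).mul_mem ((A.map π).inv_mem hāmem) h2) hāmem
          have e : (π a)⁻¹ * (π a * u * (π a)⁻¹) * π a = u := by group
          rwa [e] at h3
        have := hĀcomm _ hāmem _ hu'
        rw [this] at hu
        simpa using hu
    have hx' : π x ∈ Ā₀ ⊔ Subgroup.zpowers (π a) := by
      rw [hsup]
      exact mem_map_of_mem π hx
    obtain ⟨u, hu, v, hv, e⟩ := exists_mul_of_mem_sup hnorm hx'
    obtain ⟨k, rfl⟩ := Subgroup.mem_zpowers_iff.1 hv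
    have hx0 : x * a ^ (-k) ∈ A₀ := by
      refine ⟨A.mul_mem hx (A.zpow_mem ha _), ?_⟩
      show π (x * a ^ (-k)) ∈ Ā₀
      rw [map_mul, e, map_zpow, mul_assoc]
      simpa using hu
    have : x = x * a ^ (-k) * a ^ k := by group
    rw [this]
    exact Subgroup.mul_mem_sup hx0 (Subgroup.zpow_mem_zpowers _ _)
  -- fixed points of `A₀` lift
  have hXmap : Y.map π ⊓ centralizer (Ā₀ : Set (G ⧸ N₁)) ≤
      (Y ⊓ centralizer (A₀ : Set G)).map π := by
    rintro _ ⟨⟨y, hy, rfl⟩, hc⟩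
    have hcop₀ : (Nat.card A₀).Coprime (Nat.card Y) :=
      Nat.Coprime.coprime_dvd_left (Subgroup.card_dvd_of_le hA₀le) hcop
    have hA₀solv : Group.IsSolvable A₀ :=
      Group.isSolvable_of_comm (fun x y => Subtype.ext (hAcomm x (hA₀le x.2) y (hA₀le y.2)))
    obtain ⟨c, hc1, hc2⟩ := exists_fixed_of_fixed_mod N₁ (hA₀le.trans hAY) hcop₀
      (Or.inl hA₀solv) hN₁Y hN₁norm hN₁norm hy (by
        intro b hb
        refine hπker.1 ?_
        have h1 := Subgroup.mem_centralizer_iff.1 hc (π b) hb.2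
        simp only [map_mul, map_inv]
        rw [h1]
        group)
    refine ⟨c, hc1, ?_⟩
    have := hπker.2 hc2
    rw [map_mul, map_inv, inv_mul_eq_one] at this
    exact this.symm
  have hAX := le_normalizer_inf_centralizer (B := A₀) hAY hA₀le
  have hAH : A ≤ normalizer ((⁅Y ⊓ centralizer (A₀ : Set G), A⁆ : Subgroup G) : Set G) :=
    le_normalizer_commutator_right _ _
  have hHX : (⁅Y ⊓ centralizer (A₀ : Set G), A⁆ : Subgroup G) ≤ Y ⊓ centralizer (A₀ : Set G) :=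
    commutator_le_of_le_normalizer hAX
  rintro e ⟨⟨heY, heC⟩, heH⟩
  have he : e ∈ (⁅Y ⊓ centralizer (A₀ : Set G), A⁆ : Subgroup G).map π := by
    rw [map_commutator]
    exact Subgroup.commutator_mono hXmap le_rfl heH
  obtain ⟨h, hh, rfl⟩ := he
  have hcopH : (Nat.card A).Coprime (Nat.card (⁅Y ⊓ centralizer (A₀ : Set G), A⁆ : Subgroup G)) :=
    Nat.Coprime.coprime_dvd_right (Subgroup.card_dvd_of_le (hHX.trans inf_le_left)) hcop
  have hKN : (⁅Y ⊓ centralizer (A₀ : Set G), A⁆ : Subgroup G) ≤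
      normalizer (((⁅Y ⊓ centralizer (A₀ : Set G), A⁆ : Subgroup G) ⊓ N₁ : Subgroup G) : Set G) := by
    rw [Subgroup.le_normalizer_iff]
    rintro g hg x ⟨hx1, hx2⟩
    refine ⟨Subgroup.mul_mem _ (Subgroup.mul_mem _ hg hx1) (Subgroup.inv_mem _ hg), ?_⟩
    exact conj_mem_of_le_normalizer hN₁norm (Subgroup.mem_top g) hx2
  have hAN : A ≤ normalizer (((⁅Y ⊓ centralizer (A₀ : Set G), A⁆ : Subgroup G) ⊓ N₁ : Subgroup G) :
      Set G) := by
    rw [Subgroup.le_normalizer_iff]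
    rintro g hg x ⟨hx1, hx2⟩
    exact ⟨conj_mem_of_le_normalizer hAH hg hx1,
      conj_mem_of_le_normalizer hN₁norm (Subgroup.mem_top g) hx2⟩
  obtain ⟨c, ⟨hc1, hc3⟩, hc2⟩ := exists_fixed_of_fixed_mod
    ((⁅Y ⊓ centralizer (A₀ : Set G), A⁆ : Subgroup G) ⊓ N₁) hAH hcopH (Or.inl hAsolv) inf_le_left
    hKN hAN hh (by
      intro b hb
      refine ⟨Subgroup.mul_mem _ (conj_mem_of_le_normalizer hAH hb hh) (Subgroup.inv_mem _ hh), ?_⟩
      refine hπker.1 ?_
      have h1 := Subgroup.mem_centralizer_iff.1 heC (π b) (mem_map_of_mem π hb)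
      simp only [map_mul, map_inv]
      rw [h1]
      group)
  refine ⟨c, mem_DD_of_mem hA₀C (hHX hc1).1 hc3 hc1, ?_⟩
  have := hπker.2 hc2.2
  rw [map_mul, map_inv, inv_mul_eq_one] at this
  exact this.symm

/-- The factorization step: modulo a normal `N₁`, the group `C` is `D`; then `[C, C] ≤ D` when `N₁`
is abelian and `D` is normalized by `C`. -/
theorem comm_mem_of_factor {C D N₁ : Subgroup G} (hDC : C ≤ normalizer (D : Set G))
    (hab : ∀ x ∈ N₁, ∀ y ∈ N₁, x * y = y * x)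
    (hfact : ∀ c ∈ C, ∃ n ∈ C ⊓ N₁, ∃ d ∈ D, c = n * d) (hD : D ≤ C) :
    ∀ c₁ ∈ C, ∀ c₂ ∈ C, ⁅c₁, c₂⁆ ∈ D := by
  intro c₁ hc₁ c₂ hc₂
  obtain ⟨n₁, hn₁, d₁, hd₁, rfl⟩ := hfact c₁ hc₁
  obtain ⟨n₂, hn₂, d₂, hd₂, rfl⟩ := hfact c₂ hc₂
  have hu : d₁ * (n₂ * (d₂ * d₁⁻¹) * n₂⁻¹) ∈ D :=
    D.mul_mem hd₁ (conj_mem_of_le_normalizer hDC hn₂.1 (D.mul_mem hd₂ (D.inv_mem hd₁)))
  have h1 := conj_mem_of_le_normalizer hDC hn₁.1 hu
  have h2 := conj_mem_of_le_normalizer hDC hn₂.1 (D.inv_mem hd₂)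
  have e : ⁅n₁ * d₁, n₂ * d₂⁆ = (n₁ * (d₁ * (n₂ * (d₂ * d₁⁻¹) * n₂⁻¹)) * n₁⁻¹) *
      (n₂ * d₂⁻¹ * n₂⁻¹) := by
    have hc := hab n₁ hn₁.2 n₂ hn₂.2
    have hc' : n₂⁻¹ * n₁⁻¹ * n₂ = n₁⁻¹ := by
      calc n₂⁻¹ * n₁⁻¹ * n₂ = n₂⁻¹ * n₁⁻¹ * n₂ * n₁ * n₁⁻¹ := by group
        _ = n₂⁻¹ * n₁⁻¹ * (n₂ * n₁) * n₁⁻¹ := by group
        _ = n₂⁻¹ * n₁⁻¹ * (n₁ * n₂) * n₁⁻¹ := by rw [hc]
        _ = n₁⁻¹ := by group
    rw [commutatorElement_def]
    calc n₁ * d₁ * (n₂ * d₂) * (n₁ * d₁)⁻¹ * (n₂ * d₂)⁻¹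
        = n₁ * d₁ * n₂ * d₂ * d₁⁻¹ * n₁⁻¹ * d₂⁻¹ * n₂⁻¹ := by group
      _ = n₁ * d₁ * n₂ * d₂ * d₁⁻¹ * (n₂⁻¹ * n₁⁻¹ * n₂) * d₂⁻¹ * n₂⁻¹ := by rw [hc']
      _ = _ := by group
  rw [e]
  exact D.mul_mem h1 h2

/-- The inductive step. -/
theorem finish_step {A Y N₁ : Subgroup G} [IsMulCommutative A]
    (hAY : A ≤ normalizer (Y : Set G)) (hcop : (Nat.card A).Coprime (Nat.card Y))
    (hN₁Y : N₁ ≤ Y) (hYN₁ : Y ≤ normalizer (N₁ : Set G)) (hAN₁ : A ≤ normalizer (N₁ : Set G))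
    (hG : Y ⊔ A = ⊤)
    (hab : ∀ x ∈ N₁, ∀ y ∈ N₁, x * y = y * x)
    (hC : (∀ c₁ ∈ Y ⊓ centralizer (A : Set G), ∀ c₂ ∈ Y ⊓ centralizer (A : Set G),
        ⁅c₁, c₂⁆ ∈ DD A Y) → (Y ⊓ centralizer (A : Set G)) ⊓ N₁ ≤ DD A Y)
    (hIH : haveI : N₁.Normal := normalizer_eq_top_iff.1 (top_le_iff.1 (hG ▸ sup_le hYN₁ hAN₁))
      Y.map (QuotientGroup.mk' N₁) ⊓ centralizer ((A.map (QuotientGroup.mk' N₁) : Subgroup _) : Set _) ≤
        DD (A.map (QuotientGroup.mk' N₁)) (Y.map (QuotientGroup.mk' N₁))) :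
    Y ⊓ centralizer (A : Set G) ≤ DD A Y := by
  haveI hnorm : N₁.Normal := normalizer_eq_top_iff.1 (top_le_iff.1 (hG ▸ sup_le hYN₁ hAN₁))
  have hD := DD_map_le (N₁ := N₁) hAY hcop hN₁Y
  set C := Y ⊓ centralizer (A : Set G) with hCdef
  set D := DD A Y with hDdef
  have hDC : D ≤ C := DD_le A Y
  have hfact : ∀ c ∈ C, ∃ n ∈ C ⊓ N₁, ∃ d ∈ D, c = n * d := by
    rintro c ⟨hc1, hc2⟩
    have h1 : QuotientGroup.mk' N₁ c ∈ Y.map (QuotientGroup.mk' N₁) ⊓
        centralizer ((A.map (QuotientGroup.mk' N₁) : Subgroup _) : Set _) := by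
      refine ⟨mem_map_of_mem _ hc1, ?_⟩
      refine Subgroup.mem_centralizer_iff.2 ?_
      rintro _ ⟨a, ha, rfl⟩
      rw [← map_mul, ← map_mul, Subgroup.mem_centralizer_iff.1 hc2 a ha]
    obtain ⟨d, hd, hdc⟩ := hD (hIH h1)
    refine ⟨c * d⁻¹, ⟨C.mul_mem ⟨hc1, hc2⟩ (C.inv_mem (hDC hd)), ?_⟩, d, hd, by group⟩
    refine (QuotientGroup.eq_one_iff _).1 ?_
    have : (QuotientGroup.mk' N₁) (c * d⁻¹) = 1 := by
      rw [map_mul, map_inv, ← hdc, mul_inv_cancel]
    exact this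
  have hCD : C ≤ normalizer (D : Set G) := by
    refine le_normalizer_biSup C (Cocyc A) _ ?_
    intro B hB
    have hAX := le_normalizer_inf_centralizer (B := B) hAY hB.1
    rw [Subgroup.le_normalizer_iff]
    rintro c hc x ⟨hx1, hx2⟩
    refine ⟨C.mul_mem (C.mul_mem hc hx1) (C.inv_mem hc), ?_⟩
    have hcX : c ∈ Y ⊓ centralizer (B : Set G) := by
      refine ⟨hc.1, ?_⟩
      refine Subgroup.mem_centralizer_iff.2 (fun b hb => ?_)
      exact Subgroup.mem_centralizer_iff.1 hc.2 b (hB.1 hb)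
    exact conj_mem_of_le_normalizer (le_normalizer_commutator_left _ _) hcX hx2
  have hCC := comm_mem_of_factor hCD hab hfact hDC
  have h2 := hC hCC
  intro c hc
  obtain ⟨n, hn, d, hd, rfl⟩ := hfact c hc
  exact D.mul_mem (h2 hn) hd

/-- Cardinality drop. -/
theorem card_map_lt {Y N₁ : Subgroup G} [N₁.Normal] (hN₁Y : N₁ ≤ Y) (hne : N₁ ≠ ⊥) :
    Nat.card (Y.map (QuotientGroup.mk' N₁)) < Nat.card Y := by
  by_contra hlt
  push Not at hlt
  have hsurj := MonoidHom.subgroupMap_surjective (QuotientGroup.mk' N₁) Y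
  have hbij := hsurj.bijective_of_nat_card_le hlt
  obtain ⟨⟨n, hn⟩, hn1⟩ := (Subgroup.ne_bot_iff_exists_ne_one).1 hne
  apply hn1
  apply Subtype.ext
  show n = 1
  have h1 : ((QuotientGroup.mk' N₁).subgroupMap Y) ⟨n, hN₁Y hn⟩ =
      ((QuotientGroup.mk' N₁).subgroupMap Y) 1 := by
    apply Subtype.ext
    show QuotientGroup.mk' N₁ n = QuotientGroup.mk' N₁ 1
    rw [map_one]
    exact (QuotientGroup.eq_one_iff n).2 hn
  have h2 := hbij.1 h1
  exact congrArg Subtype.val h2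

end Quot

/-- The induction, when `G = Y A`. -/
theorem main_aux (n : ℕ) : ∀ {G : Type u} [Group G] [Finite G] (A Y : Subgroup G)
    [IsMulCommutative A], A ≤ normalizer (Y : Set G) → (Nat.card A).Coprime (Nat.card Y) →
    Group.IsSolvable Y → ⁅Y, A⁆ = Y → Y ⊔ A = ⊤ → Nat.card Y ≤ n →
    Y ⊓ centralizer (A : Set G) ≤ DD A Y := by
  induction n with
  | zero =>
    intro G _ _ A Y _ _ _ _ _ _ hn
    have := Nat.card_pos (α := Y)
    omega
  | succ n IH =>
    intro G _ _ A Y _ hAY hcop hsol hYA hG hn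
    by_cases hYab : ∀ x ∈ Y, ∀ y ∈ Y, x * y = y * x
    · haveI : IsMulCommutative Y := ⟨⟨fun a b => Subtype.ext (hYab a a.2 b b.2)⟩⟩
      have h1 := inf_commutator_eq_bot hAY hcop
      rw [hYA] at h1
      intro c hc
      have h2 : c ∈ (Y ⊓ centralizer (A : Set G)) ⊓ Y := ⟨hc, hc.1⟩
      rw [h1, Subgroup.mem_bot] at h2
      rw [h2]
      exact Subgroup.one_mem _
    -- minimal nonabelian invariant subgroup
    let S : Set (Subgroup G) := {K | K ≤ Y ∧ Y ≤ normalizer (K : Set G) ∧ A ≤ normalizer (K : Set G) ∧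
      ¬ ∀ x ∈ K, ∀ y ∈ K, x * y = y * x}
    obtain ⟨K, hK⟩ := (Set.toFinite S).exists_minimal ⟨Y, le_rfl, le_normalizer, hAY, hYab⟩
    obtain ⟨hKY, hYK, hAK, hKnab⟩ := hK.1
    have hKmin : ∀ L ∈ S, L ≤ K → K ≤ L := fun L hL h => hK.2 hL h
    have hKsol : Group.IsSolvable K :=
      Group.isSolvable_of_isSolvable_injective (f := Subgroup.inclusion hKY)
        (Subgroup.inclusion_injective hKY)
    have hKne : K ≠ ⊥ := by
      rintro rfl
      apply hKnab
      intro x hx y hy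
      rw [Subgroup.mem_bot] at hx hy
      rw [hx, hy]
    have hK₁lt := comm_lt hKsol hKne
    have hK₁K : (⁅K, K⁆ : Subgroup G) ≤ K := hK₁lt.le
    have hYK₁ : Y ≤ normalizer ((⁅K, K⁆ : Subgroup G) : Set G) :=
      le_normalizer_commutator_of_le hYK hYK
    have hAK₁ : A ≤ normalizer ((⁅K, K⁆ : Subgroup G) : Set G) :=
      le_normalizer_commutator_of_le hAK hAK
    have hK₁ab : ∀ x ∈ (⁅K, K⁆ : Subgroup G), ∀ y ∈ (⁅K, K⁆ : Subgroup G), x * y = y * x := by
      by_contra hnab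
      have := hKmin ⁅K, K⁆ ⟨hK₁K.trans hKY, hYK₁, hAK₁, hnab⟩ hK₁K
      exact (not_le_of_gt hK₁lt) this
    have hK₁ne : (⁅K, K⁆ : Subgroup G) ≠ ⊥ := by
      intro h
      apply hKnab
      intro x hx y hy
      have := Subgroup.commutator_mem_commutator hx hy
      rw [h, Subgroup.mem_bot, commutatorElement_eq_one_iff_mul_comm] at this
      exact this
    haveI instK₁ : IsMulCommutative (⁅K, K⁆ : Subgroup G) :=
      ⟨⟨fun a b => Subtype.ext (hK₁ab a a.2 b b.2)⟩⟩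
    -- the inductive hypothesis is available for any `N₁`
    have hstep : ∀ N₁ : Subgroup G, N₁ ≠ ⊥ → N₁ ≤ Y → Y ≤ normalizer (N₁ : Set G) →
        A ≤ normalizer (N₁ : Set G) → (∀ x ∈ N₁, ∀ y ∈ N₁, x * y = y * x) →
        ((∀ c₁ ∈ Y ⊓ centralizer (A : Set G), ∀ c₂ ∈ Y ⊓ centralizer (A : Set G),
          ⁅c₁, c₂⁆ ∈ DD A Y) → (Y ⊓ centralizer (A : Set G)) ⊓ N₁ ≤ DD A Y) →
        Y ⊓ centralizer (A : Set G) ≤ DD A Y := by
      intro N₁ hne hN₁Y hYN₁ hAN₁ hab hC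
      refine finish_step hAY hcop hN₁Y hYN₁ hAN₁ hG hab hC ?_
      haveI hnorm : N₁.Normal := normalizer_eq_top_iff.1 (top_le_iff.1 (hG ▸ sup_le hYN₁ hAN₁))
      set π : G →* G ⧸ N₁ := QuotientGroup.mk' N₁ with hπ
      have hπsurj : Function.Surjective π := QuotientGroup.mk'_surjective N₁
      haveI : IsMulCommutative (A.map π) := by
        refine ⟨⟨fun a b => ?_⟩⟩
        obtain ⟨a, x, hx, hax⟩ := a
        obtain ⟨b, y, hy, hby⟩ := b
        apply Subtype.ext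
        show a * b = b * a
        rw [← hax, ← hby, ← map_mul, ← map_mul]
        exact congrArg π (congrArg Subtype.val (mul_comm' (⟨x, hx⟩ : A) (⟨y, hy⟩ : A)))
      refine IH (A.map π) (Y.map π) ?_ ?_ ?_ ?_ ?_ ?_
      · exact (map_mono hAY).trans (le_normalizer_map π)
      · exact Nat.Coprime.coprime_dvd_left (Subgroup.card_map_dvd A π)
          (Nat.Coprime.coprime_dvd_right (Subgroup.card_map_dvd Y π) hcop)
      · exact Group.isSolvable_of_surjective (MonoidHom.subgroupMap_surjective π Y)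
      · rw [← map_commutator, hYA]
      · rw [← Subgroup.map_sup, hG, map_top_of_surjective π hπsurj]
      · have : Nat.card (Y.map π) < Nat.card Y := card_map_lt hN₁Y hne
        omega
    by_cases hcase : (⁅(⁅K, K⁆ : Subgroup G), K⁆ : Subgroup G) = ⊥
    · -- central case
      have hcent : ∀ t ∈ (⁅K, K⁆ : Subgroup G), ∀ k ∈ K, t * k = k * t := by
        intro t ht k hk
        have := Subgroup.commutator_mem_commutator ht hk
        rw [hcase, Subgroup.mem_bot, commutatorElement_eq_one_iff_mul_comm] at this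
        exact this
      refine hstep ⁅K, K⁆ hK₁ne (hK₁K.trans hKY) hYK₁ hAK₁ hK₁ab ?_
      exact bilinear_lemma hAY hcop hKY hAK hcent
    · -- non-central case
      have hN₁K : (⁅(⁅K, K⁆ : Subgroup G), Y⁆ : Subgroup G) ≤ ⁅K, K⁆ :=
        commutator_le_of_le_normalizer hYK₁
      refine hstep ⁅⁅K, K⁆, Y⁆ ?_ (hN₁K.trans (hK₁K.trans hKY))
        (le_normalizer_commutator_of_le hYK₁ le_normalizer)
        (le_normalizer_commutator_of_le hAK₁ hAY)
        (fun x hx y hy => hK₁ab x (hN₁K hx) y (hN₁K hy)) ?_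
      · intro h
        apply hcase
        rw [eq_bot_iff, ← h]
        exact Subgroup.commutator_mono le_rfl hKY
      · intro _
        exact module_lemma hAY hcop hYA (hK₁K.trans hKY) hYK₁ hAK₁

section General

variable {G : Type u} [Group G] [Finite G]

/-- The main theorem, in general. -/
theorem fixed_le_DD {A Y : Subgroup G} [IsMulCommutative A]
    (hAY : A ≤ normalizer (Y : Set G)) (hcop : (Nat.card A).Coprime (Nat.card Y))
    (hsol : Group.IsSolvable Y) (hYA : ⁅Y, A⁆ = Y) :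
    Y ⊓ centralizer (A : Set G) ≤ DD A Y := by
  set W : Subgroup G := Y ⊔ A with hW
  have hYW : Y ≤ W := le_sup_left
  have hAW : A ≤ W := le_sup_right
  have hAcomm : ∀ a ∈ A, ∀ b ∈ A, a * b = b * a := fun a ha b hb =>
    congrArg Subtype.val (mul_comm' (⟨a, ha⟩ : A) (⟨b, hb⟩ : A))
  haveI : IsMulCommutative (A.subgroupOf W) := by
    refine ⟨⟨fun a b => ?_⟩⟩
    apply Subtype.ext
    apply Subtype.ext
    exact hAcomm _ a.2 _ b.2
  have hmap : ∀ H : Subgroup G, H ≤ W → (H.subgroupOf W).map W.subtype = H := fun H hH =>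
    Subgroup.map_subgroupOf_eq_of_le hH
  have h := main_aux (Nat.card (Y.subgroupOf W)) (A.subgroupOf W) (Y.subgroupOf W)
    (by
      rw [Subgroup.le_normalizer_iff]
      intro a ha y hy
      exact conj_mem_of_le_normalizer hAY ha hy)
    (by
      rw [Nat.card_congr (Subgroup.subgroupOfEquivOfLe hAW).toEquiv,
        Nat.card_congr (Subgroup.subgroupOfEquivOfLe hYW).toEquiv]
      exact hcop)
    (Group.isSolvable_of_surjective (f := (Subgroup.subgroupOfEquivOfLe hYW).symm.toMonoidHom)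
      (Subgroup.subgroupOfEquivOfLe hYW).symm.surjective)
    (by
      apply Subgroup.map_injective W.subtype_injective
      rw [map_commutator, hmap Y hYW, hmap A hAW, hYA])
    (by
      apply Subgroup.map_injective W.subtype_injective
      rw [Subgroup.map_sup, hmap Y hYW, hmap A hAW, ← MonoidHom.range_eq_map, Subgroup.range_subtype])
    le_rfl
  rintro c ⟨hcY, hcA⟩
  have hc1 : (⟨c, hYW hcY⟩ : W) ∈ DD (A.subgroupOf W) (Y.subgroupOf W) := by
    refine h ⟨hcY, ?_⟩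
    refine Subgroup.mem_centralizer_iff.2 ?_
    intro a ha
    apply Subtype.ext
    exact Subgroup.mem_centralizer_iff.1 hcA a ha
  have hle : (DD (A.subgroupOf W) (Y.subgroupOf W)).map W.subtype ≤ DD A Y := by
    unfold DD
    rw [Subgroup.map_iSup]
    refine iSup_le ?_
    intro B'
    rw [Subgroup.map_iSup]
    refine iSup_le ?_
    rintro ⟨hB'A, a', ha', hsup⟩
    have hBA : B'.map W.subtype ≤ A := by
      rw [← hmap A hAW]
      exact map_mono hB'A
    have hBC : B'.map W.subtype ∈ Cocyc A := by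
      refine ⟨hBA, (a' : G), ha', ?_⟩
      have h1 := congrArg (Subgroup.map W.subtype) hsup
      rw [Subgroup.map_sup, MonoidHom.map_zpowers, hmap A hAW] at h1
      exact h1
    rintro _ ⟨e, ⟨⟨he1, he2⟩, he3⟩, rfl⟩
    refine mem_DD_of_mem hBC he1 ?_ ?_
    · refine Subgroup.mem_centralizer_iff.2 ?_
      intro a ha
      have := Subgroup.mem_centralizer_iff.1 he2 ⟨a, hAW ha⟩ ha
      exact congrArg Subtype.val this
    · have h2 : (⁅Y.subgroupOf W ⊓ centralizer (B' : Set W), A.subgroupOf W⁆ : Subgroup W).map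
          W.subtype ≤ ⁅Y ⊓ centralizer ((B'.map W.subtype : Subgroup G) : Set G), A⁆ := by
        rw [map_commutator, hmap A hAW]
        refine Subgroup.commutator_mono ?_ le_rfl
        rintro _ ⟨x, ⟨hx1, hx2⟩, rfl⟩
        refine ⟨hx1, Subgroup.mem_centralizer_iff.2 ?_⟩
        rintro _ ⟨b, hb, rfl⟩
        exact congrArg Subtype.val (Subgroup.mem_centralizer_iff.1 hx2 b hb)
      exact h2 (mem_map_of_mem _ he3)
  exact hle (mem_map_of_mem _ hc1)

/-- A cocyclic quotient. -/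
theorem isCyclic_quot {A A₀ B : Subgroup G} [IsMulCommutative A] (hA₀ : A₀ ∈ Cocyc A) (hB : B ≤ A)
    [((A₀ ⊓ B).subgroupOf B).Normal] : IsCyclic (↥B ⧸ (A₀ ⊓ B).subgroupOf B) := by
  obtain ⟨hA₀A, a, ha, hsup⟩ := hA₀
  have hAcomm : ∀ x ∈ A, ∀ y ∈ A, x * y = y * x := fun x hx y hy =>
    congrArg Subtype.val (mul_comm' (⟨x, hx⟩ : A) (⟨y, hy⟩ : A))
  haveI hnA : (A₀.subgroupOf A).Normal := by
    refine ⟨fun n hn g => ?_⟩
    have : g * n * g⁻¹ = n := by
      apply Subtype.ext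
      have h1 := hAcomm g g.2 n n.2
      show (g : G) * n * (g : G)⁻¹ = n
      rw [h1]
      group
    rw [this]
    exact hn
  haveI hcyc : IsCyclic (↥A ⧸ A₀.subgroupOf A) := by
    refine ⟨⟨QuotientGroup.mk ⟨a, ha⟩, fun x => ?_⟩⟩
    obtain ⟨x, rfl⟩ := QuotientGroup.mk_surjective x
    have hnorm : Subgroup.zpowers a ≤ normalizer (A₀ : Set G) := by
      rw [zpowers_le, mem_normalizer_iff]
      intro u
      constructor
      · intro hu
        rw [hAcomm a ha u (hA₀A hu)]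
        simpa using hu
      · intro hu
        have h3 : a * u * a⁻¹ ∈ A := hA₀A hu
        have hu' : u ∈ A := by
          have h4 := A.mul_mem (A.mul_mem (A.inv_mem ha) h3) ha
          have e : a⁻¹ * (a * u * a⁻¹) * a = u := by group
          rwa [e] at h4
        rw [hAcomm a ha u hu'] at hu
        simpa using hu
    have hx' : (x : G) ∈ A₀ ⊔ Subgroup.zpowers a := by
      rw [hsup]
      exact x.2
    obtain ⟨u, hu, v, hv, e⟩ := exists_mul_of_mem_sup hnorm hx'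
    obtain ⟨k, rfl⟩ := Subgroup.mem_zpowers_iff.1 hv
    refine ⟨k, ?_⟩
    show (QuotientGroup.mk ⟨a, ha⟩ : ↥A ⧸ A₀.subgroupOf A) ^ k = QuotientGroup.mk x
    rw [← QuotientGroup.mk_zpow, QuotientGroup.eq]
    show ((((⟨a, ha⟩ : A) ^ k)⁻¹ * x : A) : G) ∈ A₀
    have e2 : (((⟨a, ha⟩ : A) ^ k)⁻¹ * x : A) = ⟨u, hA₀A hu⟩ := by
      apply Subtype.ext
      show ((a ^ k)⁻¹ * (x : G)) = u
      rw [e]
      have h5 : u * a ^ k = a ^ k * u := hAcomm _ (hA₀A hu) _ (A.zpow_mem ha k)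
      rw [h5]
      group
    rw [e2]
    exact hu
  let g : ↥B ⧸ (A₀ ⊓ B).subgroupOf B →* ↥A ⧸ A₀.subgroupOf A :=
    QuotientGroup.map _ _ (Subgroup.inclusion hB) (by
      intro x hx
      exact hx.1)
  refine isCyclic_of_injective g ?_
  rw [injective_iff_map_eq_one]
  intro x hx
  obtain ⟨x, rfl⟩ := QuotientGroup.mk_surjective x
  have h1 : Subgroup.inclusion hB x ∈ A₀.subgroupOf A :=
    (QuotientGroup.eq_one_iff (N := A₀.subgroupOf A) (Subgroup.inclusion hB x)).1 hx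
  refine (QuotientGroup.eq_one_iff _).2 ?_
  exact ⟨h1, x.2⟩

/-- The statement, given solvability of `Y`. -/
theorem main {A B Y : Subgroup G} [IsMulCommutative A] (hB : B ≤ A)
    (hcop : (Nat.card A).Coprime (Nat.card Y)) (hAY : A ≤ normalizer (Y : Set G))
    (hYA : ⁅Y, A⁆ = Y) (hsol : Group.IsSolvable Y) :
    Y ⊓ centralizer (B : Set G) = ⨆ B₀ : {B₀ : Subgroup G // B₀ ≤ B ∧
      ∀ [(B₀.subgroupOf B).Normal], IsCyclic (↥B ⧸ B₀.subgroupOf B)},
      Y ⊓ centralizer (B : Set G) ⊓ ⁅Y ⊓ centralizer ((B₀ : Subgroup G) : Set G), A⁆ := by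
  apply le_antisymm
  swap
  · exact iSup_le (fun _ => inf_le_left)
  have hXA := le_normalizer_inf_centralizer (B := B) hAY hB
  have hAsolv : Group.IsSolvable A := Group.isSolvable_of_comm (fun a b => mul_comm' a b)
  have hfac := commutator_sup_fixed hXA
    (Nat.Coprime.coprime_dvd_right (Subgroup.card_dvd_of_le inf_le_left) hcop) (Or.inl hAsolv)
  refine hfac.ge.trans (sup_le ?_ ?_)
  · refine le_iSup_of_le ⟨B, le_rfl, ?_⟩ (le_inf (commutator_le_of_le_normalizer hXA) le_rfl)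
    intro _
    haveI : Subsingleton (↥B ⧸ B.subgroupOf B) := by
      refine ⟨fun x y => ?_⟩
      obtain ⟨x, rfl⟩ := QuotientGroup.mk_surjective x
      obtain ⟨y, rfl⟩ := QuotientGroup.mk_surjective y
      rw [QuotientGroup.eq]
      exact B.mul_mem (B.inv_mem x.2) y.2
    infer_instance
  · intro x hx
    have hx' : x ∈ DD A Y := fixed_le_DD hAY hcop hsol hYA ⟨hx.1.1, hx.2⟩
    revert hx'
    refine fun hx' => (?_ : DD A Y ≤ _) hx'
    refine iSup₂_le ?_
    intro A₀ hA₀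
    refine le_iSup_of_le ⟨A₀ ⊓ B, inf_le_right, isCyclic_quot hA₀ hB⟩ ?_
    rintro u ⟨⟨hu1, hu2⟩, hu3⟩
    refine ⟨⟨hu1, Subgroup.mem_centralizer_iff.2 (fun b hb => ?_)⟩, ?_⟩
    · exact Subgroup.mem_centralizer_iff.1 hu2 b (hB hb)
    · refine Subgroup.commutator_mono ?_ le_rfl hu3
      refine inf_le_inf_left _ (Subgroup.centralizer_le ?_)
      exact fun z hz => hz.1

end General

/-- The shape of S1329, given Feit-Thompson for `Y`. -/
theorem main_stmt {G : Type*} [Group G] [Finite G] (A B Y : Subgroup G) (hA2 : IsPGroup 2 ↥A)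
    (hAc : IsMulCommutative ↥A) (hB : B ≤ A) (hYodd : Odd (Nat.card ↥Y))
    (hAY : A ≤ Subgroup.normalizer (Y : Set G)) (hYA : ⁅Y, A⁆ = Y) (hsol : Group.IsSolvable Y) :
    Y ⊓ Subgroup.centralizer (B : Set G) = ⨆ B₀ : {B₀ : Subgroup G // B₀ ≤ B ∧
      ∀ [(B₀.subgroupOf B).Normal], IsCyclic (↥B ⧸ B₀.subgroupOf B)},
      Y ⊓ Subgroup.centralizer (B : Set G) ⊓
        ⁅Y ⊓ Subgroup.centralizer ((B₀ : Subgroup G) : Set G), A⁆ := by
  have hcop : (Nat.card A).Coprime (Nat.card Y) := by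
    obtain ⟨k, hk⟩ := IsPGroup.iff_card.1 hA2
    rw [hk]
    exact Nat.Coprime.pow_left k (Nat.coprime_two_left.2 hYodd)
  exact main hB hcop hAY hYA hsol

end Cfsg.Agent.Lib.GoldGen
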