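/-
Action on `p`-components modulo the core, for Goldschmidt's functor (S1330).
-/
import Cfsg.Agent.Lib.GoldGen.Main
import Cfsg.Agent.Lib.Components.Unbalance
import Cfsg.Agent.Lib.Signal.PComp

set_option autoImplicit false

namespace Cfsg.Agent.Lib.GoldGen.QuotAct

open Subgroup Cfsg Cfsg.Agent.Lib.Components.HatLayer Cfsg.Agent.Lib.Components.Unbalance
  Cfsg.Agent.Lib.Core.Basic Cfsg.Agent.Lib.Signal.PComp
open scoped commutatorElement

universe u

variable {X : Type u} [Group X] [Finite X]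

/-- The elements of `X` acting trivially on `K` modulo the core. -/
def Cb (K : Subgroup X) : Subgroup X :=
  (centralizer ((K.map (QuotientGroup.mk' (pPrimeCore 2 X)) : Subgroup (X ⧸ pPrimeCore 2 X)) :
    Set (X ⧸ pPrimeCore 2 X))).comap (QuotientGroup.mk' (pPrimeCore 2 X))

theorem mem_Cb_of {K : Subgroup X} {y : X} (h : ∀ k ∈ K, ⁅k, y⁆ ∈ pPrimeCore 2 X) : y ∈ Cb K := by
  refine Subgroup.mem_centralizer_iff.2 ?_
  rintro _ ⟨k, hk, rfl⟩
  have h1 : QuotientGroup.mk' (pPrimeCore 2 X) ⁅k, y⁆ = 1 := (QuotientGroup.eq_one_iff _).2 (h k hk)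
  rw [commutatorElement_def, map_mul, map_mul, map_mul, map_inv, map_inv] at h1
  have h2 := mul_inv_eq_one.1 h1
  have h3 := mul_inv_eq_iff_eq_mul.1 h2
  exact h3

theorem comm_mem_of_mem_Cb {K : Subgroup X} {y k : X} (hy : y ∈ Cb K) (hk : k ∈ K) :
    ⁅k, y⁆ ∈ pPrimeCore 2 X := by
  refine (QuotientGroup.eq_one_iff _).1 ?_
  show QuotientGroup.mk' (pPrimeCore 2 X) ⁅k, y⁆ = 1
  have h := Subgroup.mem_centralizer_iff.1 hy (QuotientGroup.mk' (pPrimeCore 2 X) k)
    ⟨k, hk, rfl⟩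
  rw [commutatorElement_def, map_mul, map_mul, map_mul, map_inv, map_inv]
  rw [h]
  group

/-- Conjugating a core-trivial element by an element normalizing `K` modulo the core. -/
theorem comm_mem_Cb {K : Subgroup X} {r s : X}
    (hr : QuotientGroup.mk' (pPrimeCore 2 X) r ∈
      normalizer ((K.map (QuotientGroup.mk' (pPrimeCore 2 X)) : Subgroup (X ⧸ pPrimeCore 2 X)) :
        Set (X ⧸ pPrimeCore 2 X)))
    (hs : s ∈ Cb K) : ⁅r, s⁆ ∈ Cb K := by
  set π := QuotientGroup.mk' (pPrimeCore 2 X) with hπ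
  refine Subgroup.mem_centralizer_iff.2 ?_
  intro u hu
  have hcent : ∀ v ∈ (K.map π : Subgroup (X ⧸ pPrimeCore 2 X)), v * π s = π s * v := fun v hv =>
    Subgroup.mem_centralizer_iff.1 hs v hv
  have h1 : (π r)⁻¹ * u * π r ∈ (K.map π : Subgroup (X ⧸ pPrimeCore 2 X)) :=
    Cfsg.Agent.Lib.Coprime.Action.inv_conj_mem_of_le_normalizer le_rfl hr hu
  have h2 := hcent _ h1
  have h3 := hcent u hu
  rw [commutatorElement_def, map_mul, map_mul, map_mul, map_inv, map_inv]
  -- `r s r⁻¹ s⁻¹` commutes with `u`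
  calc u * (π r * π s * (π r)⁻¹ * (π s)⁻¹)
      = π r * ((π r)⁻¹ * u * π r) * π s * (π r)⁻¹ * (π s)⁻¹ := by group
    _ = π r * (((π r)⁻¹ * u * π r) * π s) * (π r)⁻¹ * (π s)⁻¹ := by group
    _ = π r * (π s * ((π r)⁻¹ * u * π r)) * (π r)⁻¹ * (π s)⁻¹ := by rw [h2]
    _ = π r * π s * (π r)⁻¹ * (u * (π s)⁻¹) := by group
    _ = π r * π s * (π r)⁻¹ * ((π s)⁻¹ * (π s * u) * (π s)⁻¹) := by group
    _ = π r * π s * (π r)⁻¹ * ((π s)⁻¹ * (u * π s) * (π s)⁻¹) := by rw [h3]
    _ = π r * π s * (π r)⁻¹ * (π s)⁻¹ * u := by group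

/-- Passing `O_{p'}(N(R))` to the quotient. -/
theorem mk_mem_PPIn_normalizer {R : Subgroup X} (hR : IsPGroup 2 R) {r : X}
    (hr : r ∈ PPIn 2 (normalizer (R : Set X))) :
    QuotientGroup.mk' (pPrimeCore 2 X) r ∈ PPIn 2 (normalizer
      ((R.map (QuotientGroup.mk' (pPrimeCore 2 X)) : Subgroup (X ⧸ pPrimeCore 2 X)) :
        Set (X ⧸ pPrimeCore 2 X))) := by
  have hmapN := map_normalizer_of_coprime (O := pPrimeCore 2 X) hR pPrimeCore_coprime
  have hle := map_PPIn_le (p := 2) (QuotientGroup.mk' (pPrimeCore 2 X)) (normalizer (R : Set X))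
  rw [hmapN] at hle
  exact hle ⟨r, hr, rfl⟩

/-- Elements of `O_{p'}(N(R))` normalize `p`-components modulo the core. -/
theorem mk_mem_normalizer {R : Subgroup X} (hR : IsPGroup 2 R) {r : X}
    (hr : r ∈ PPIn 2 (normalizer (R : Set X))) {K : Subgroup X} (hK : IsPComponent 2 K) :
    QuotientGroup.mk' (pPrimeCore 2 X) r ∈
      normalizer ((K.map (QuotientGroup.mk' (pPrimeCore 2 X)) : Subgroup (X ⧸ pPrimeCore 2 X)) :
        Set (X ⧸ pPrimeCore 2 X)) :=
  mem_normalizer_component pPrimeCore_quotient_eq_bot (hR.map _) (mk_mem_PPIn_normalizer hR hr) hK.2.1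

theorem isPGroup_zpowers_of_involution {a : X} (ha : orderOf a = 2) :
    IsPGroup 2 (zpowers a : Subgroup X) := by
  rw [IsPGroup.iff_card]
  exact ⟨1, by rw [Nat.card_zpowers, ha, pow_one]⟩

/-- **Lemma A.** -/
theorem le_core_of_forall {a : X} (ha : orderOf a = 2) {Y : Subgroup X}
    (hY : Y ≤ PPIn 2 (centralizer ({a} : Set X))) (h : ∀ K, IsPComponent 2 K → Y ≤ Cb K) :
    Y ≤ pPrimeCore 2 X := by
  set π := QuotientGroup.mk' (pPrimeCore 2 X) with hπ
  have hker : ∀ {x : X}, π x = 1 ↔ x ∈ pPrimeCore 2 X := fun {x} => QuotientGroup.eq_one_iff x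
  have ha2 : a ^ 2 = 1 := by rw [← ha]; exact pow_orderOf_eq_one a
  have ht : orderOf (π a) = 2 := by
    refine orderOf_eq_prime (by rw [← map_pow, ha2, map_one]) ?_
    intro h1
    have h2 := hker.1 h1
    have h3 := orderOf_coprime_of_mem_pPrimeCore h2
    rw [ha] at h3
    exact absurd h3 (by decide)
  by_contra hne
  have hY1 : Y.map π ≠ ⊥ := by
    intro h1
    apply hne
    intro y hy
    have h2 : π y ∈ Y.map π := mem_map_of_mem _ hy
    rw [h1, Subgroup.mem_bot] at h2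
    exact hker.1 h2
  have hnc := normalizer_zpowers_of_involution ha
  have hnc' := normalizer_zpowers_of_involution ht
  have hY' : Y.map π ≤ PPIn 2 (centralizer ({π a} : Set (X ⧸ pPrimeCore 2 X))) := by
    rintro _ ⟨y, hy, rfl⟩
    have h1 := hY hy
    rw [← hnc] at h1
    have h2 := mk_mem_PPIn_normalizer (isPGroup_zpowers_of_involution ha) h1
    rw [MonoidHom.map_zpowers, hnc'] at h2
    exact h2
  obtain ⟨E, hE, -, -, -, hEY⟩ := exists_component pPrimeCore_quotient_eq_bot ht hY1 hY'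
  obtain ⟨K, hK, rfl⟩ := exists_isPComponent hE
  apply hEY
  rintro _ ⟨y, hy, rfl⟩
  exact h K hK hy

/-- Lifting of centralizers of `2`-subgroups through the core. -/
theorem map_centralizer_of_pGroup {R : Subgroup X} (hR : IsPGroup 2 R) :
    (centralizer (R : Set X)).map (QuotientGroup.mk' (pPrimeCore 2 X)) =
      centralizer ((R.map (QuotientGroup.mk' (pPrimeCore 2 X)) : Subgroup (X ⧸ pPrimeCore 2 X)) :
        Set (X ⧸ pPrimeCore 2 X)) := by
  set π := QuotientGroup.mk' (pPrimeCore 2 X) with hπ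
  have hker : ∀ {x : X}, π x = 1 ↔ x ∈ pPrimeCore 2 X := fun {x} => QuotientGroup.eq_one_iff x
  apply le_antisymm
  · rintro _ ⟨u, hu, rfl⟩
    refine Subgroup.mem_centralizer_iff.2 ?_
    rintro _ ⟨r, hr, rfl⟩
    rw [← map_mul, ← map_mul, Subgroup.mem_centralizer_iff.1 hu r hr]
  · intro s hs
    have hsN : s ∈ normalizer ((R.map π : Subgroup (X ⧸ pPrimeCore 2 X)) :
        Set (X ⧸ pPrimeCore 2 X)) := centralizer_le_normalizer _ hs
    have hmapN := map_normalizer_of_coprime (O := pPrimeCore 2 X) hR pPrimeCore_coprime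
    rw [← hmapN] at hsN
    obtain ⟨u, hu, rfl⟩ := hsN
    refine ⟨u, ?_, rfl⟩
    refine Subgroup.mem_centralizer_iff.2 ?_
    intro r hr
    have h1 : r * u * r⁻¹ * u⁻¹ ∈ R := by
      have e : r * u * r⁻¹ * u⁻¹ = r * (u * r⁻¹ * u⁻¹) := by group
      rw [e]
      exact mul_mem hr (Cfsg.Agent.Lib.Coprime.Action.conj_mem_of_le_normalizer le_rfl hu (inv_mem hr))
    have h2 : π (r * u * r⁻¹ * u⁻¹) = 1 := by
      have h3 : π r * π u = π u * π r := Subgroup.mem_centralizer_iff.1 hs (π r) ⟨r, hr, rfl⟩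
      rw [map_mul, map_mul, map_mul, map_inv, map_inv, h3]
      group
    have h3 := hker.1 h2
    have h4 := orderOf_coprime_of_mem_pPrimeCore h3
    obtain ⟨k, hk⟩ := exists_pow_of_isPGroup hR h1
    have h5 := Cfsg.Agent.Lib.CharP.Basic.eq_one_of_pow_and_coprime h4 hk
    have h6 : r * u = u * r := by
      rw [mul_inv_eq_one, mul_inv_eq_iff_eq_mul] at h5
      exact h5
    exact h6

/-- **Lemma B.** -/
theorem mem_Cb_of_mem_PPIn_centralizer {R : Subgroup X} (hR : IsPGroup 2 R) {w : X}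
    (hw : w ∈ PPIn 2 (centralizer (R : Set X))) {K : Subgroup X} (hK : IsPComponent 2 K)
    (hRK : R ≤ Cb K) : w ∈ Cb K := by
  set π := QuotientGroup.mk' (pPrimeCore 2 X) with hπ
  have hLift := map_centralizer_of_pGroup hR
  have hw1 : π w ∈ PPIn 2 (centralizer ((R.map π : Subgroup (X ⧸ pPrimeCore 2 X)) :
      Set (X ⧸ pPrimeCore 2 X))) := by
    have hle := map_PPIn_le (p := 2) π (centralizer (R : Set X))
    rw [hLift] at hle
    exact hle ⟨w, hw, rfl⟩
  have hw2 : π w ∈ PPIn 2 (normalizer ((R.map π : Subgroup (X ⧸ pPrimeCore 2 X)) :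
      Set (X ⧸ pPrimeCore 2 X))) := by
    refine le_PPIn ((PPIn_le _).trans (centralizer_le_normalizer _)) ?_ (card_PPIn_coprime _) hw1
    refine le_trans ?_ (normalizer_le_normalizer_PPIn _)
    rw [Subgroup.le_normalizer_iff]
    intro g hg c hc
    refine Subgroup.mem_centralizer_iff.2 ?_
    intro r hr
    have h1 := Subgroup.mem_centralizer_iff.1 hc (g⁻¹ * r * g)
      (Cfsg.Agent.Lib.Coprime.Action.inv_conj_mem_of_le_normalizer le_rfl hg hr)
    calc r * (g * c * g⁻¹) = g * ((g⁻¹ * r * g) * c) * g⁻¹ := by group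
      _ = g * (c * (g⁻¹ * r * g)) * g⁻¹ := by rw [h1]
      _ = g * c * g⁻¹ * r := by group
  have hwN := mem_normalizer_component pPrimeCore_quotient_eq_bot (hR.map _) hw2 hK.2.1
  have hKC : ∀ e : (K.map π : Subgroup (X ⧸ pPrimeCore 2 X)),
      (e : X ⧸ pPrimeCore 2 X) ∈ centralizer ((R.map π : Subgroup (X ⧸ pPrimeCore 2 X)) :
        Set (X ⧸ pPrimeCore 2 X)) := by
    intro e
    refine Subgroup.mem_centralizer_iff.2 ?_
    rintro _ ⟨r, hr, rfl⟩
    exact (Subgroup.mem_centralizer_iff.1 (hRK hr) e e.2).symm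
  have hcomm := commutator_eq_bot_of_hom (p := 2) pPrimeCore_quotient_eq_bot hK.2.1
    (C := centralizer ((R.map π : Subgroup (X ⧸ pPrimeCore 2 X)) : Set (X ⧸ pPrimeCore 2 X)))
    (zpowers (π w)) (zpowers_le.2 hw1) (zpowers_le.2 hwN) (K.map π).subtype hKC
    (by
      intro e _ h1 f
      have : e = 1 := Subtype.ext h1
      rw [this, one_mul, mul_one])
    (fun x _ e _ => rfl)
  refine Subgroup.mem_centralizer_iff.2 ?_
  intro k hk
  have h1 := Subgroup.commutator_mem_commutator hk (mem_zpowers (π w))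
  rw [hcomm, Subgroup.mem_bot, commutatorElement_eq_one_iff_mul_comm] at h1
  exact h1

end Cfsg.Agent.Lib.GoldGen.QuotAct
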