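/-
Goldschmidt's functor (S1330), modulo solvability of groups of odd order.
-/
import Cfsg.Agent.Lib.GoldGen.QuotAct
import Cfsg.Agent.Lib.NCA8.MinAct

set_option autoImplicit false

namespace Cfsg.Agent.Lib.GoldGen.Functor

open Subgroup Cfsg Cfsg.Agent.Lib.Components.HatLayer Cfsg.Agent.Lib.Components.Unbalance
  Cfsg.Agent.Lib.Core.Basic Cfsg.Agent.Lib.Signal.PComp Cfsg.Agent.Lib.GoldGen
  Cfsg.Agent.Lib.GoldGen.QuotAct Cfsg.Agent.Lib.Coprime.Action
open scoped commutatorElement IsMulCommutative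

universe u

variable {G : Type u} [Group G]

/-- `O(C_G(a))`. -/
abbrev Oo (a : G) : Subgroup G := PPIn 2 (centralizer ({a} : Set G))

/-- One of the two factors of `θ a`. -/
noncomputable abbrev Th (B : Subgroup G) (a : G) : Subgroup G :=
  ⁅Oo a, B⁆ ⊔ (Oo a ⊓ PPIn 2 (centralizer (B : Set G)))

/-- The hypotheses, for the pair `B`, `B'`. -/
structure Sep (B B' : Subgroup G) : Prop where
  ea : IsElementaryAbelian 2 B
  ea' : IsElementaryAbelian 2 B'
  card : Nat.card B = 4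
  card' : Nat.card B' = 4
  comm : ∀ x ∈ B, ∀ y ∈ B', x * y = y * x
  sep : ∀ a ∈ B ⊔ B', a ≠ 1 → ∀ E : Subgroup ↥(centralizer ({a} : Set G)), IsPComponent 2 E →
    ⁅E.map (centralizer ({a} : Set G)).subtype, B⁆ ≤ Oo a ∨
    ⁅E.map (centralizer ({a} : Set G)).subtype, B'⁆ ≤ Oo a

theorem Sep.symm {B B' : Subgroup G} (h : Sep B B') : Sep B' B :=
  { ea := h.ea', ea' := h.ea, card := h.card', card' := h.card
    comm := fun x hx y hy => (h.comm y hy x hx).symm
    sep := fun a ha ha1 E hE => by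
      rw [sup_comm] at ha
      exact (h.sep a ha ha1 E hE).symm }

theorem sep_of_coreSeparated {A₁ A₂ : Subgroup G} (hcs : IsCoreSeparated A₁ A₂) : Sep A₁ A₂ := by
  obtain ⟨h1, h2, h3, h4, -, -, h7, h8⟩ := hcs
  exact ⟨h1, h2, h3, h4, h7, h8⟩

theorem Sep.bcomm {B B' : Subgroup G} (h : Sep B B') :
    ∀ x ∈ B, ∀ y ∈ B, x * y = y * x := fun x hx y hy => by
  haveI := h.ea.1
  exact congrArg Subtype.val (mul_comm' (⟨x, hx⟩ : B) (⟨y, hy⟩ : B))

theorem Sep.exists_decomp {B B' : Subgroup G} (h : Sep B B') {a : G} (ha : a ∈ B ⊔ B') :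
    ∃ a₁ ∈ B, ∃ a₂ ∈ B', a = a₁ * a₂ := by
  refine exists_mul_of_mem_sup ?_ ha
  rw [Subgroup.le_normalizer_iff]
  intro y hy x hx
  rw [← h.comm x hx y hy]
  simpa using hx

/-- Elements of `B ⊔ B'` commute with `B`. -/
theorem Sep.comm_left {B B' : Subgroup G} (h : Sep B B') {a s : G} (ha : a ∈ B ⊔ B') (hs : s ∈ B) :
    s * a = a * s := by
  obtain ⟨a₁, h1, a₂, h2, rfl⟩ := h.exists_decomp ha
  have h3 := h.bcomm s hs a₁ h1
  have h4 := h.comm s hs a₂ h2
  calc s * (a₁ * a₂) = (s * a₁) * a₂ := by group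
    _ = a₁ * (s * a₂) := by rw [h3]; group
    _ = a₁ * a₂ * s := by rw [h4]; group

theorem Sep.sq_eq_one {B B' : Subgroup G} (h : Sep B B') {a : G} (ha : a ∈ B ⊔ B') :
    a ^ 2 = 1 := by
  obtain ⟨a₁, h1, a₂, h2, rfl⟩ := h.exists_decomp ha
  have h3 := h.ea.2 a₁ h1
  have h4 := h.ea'.2 a₂ h2
  have h5 := h.comm a₁ h1 a₂ h2
  have e : (a₁ * a₂) ^ 2 = a₁ ^ 2 * a₂ ^ 2 := by
    rw [pow_two, pow_two, pow_two]
    calc a₁ * a₂ * (a₁ * a₂) = a₁ * (a₂ * a₁) * a₂ := by group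
      _ = a₁ * (a₁ * a₂) * a₂ := by rw [h5]
      _ = _ := by group
  rw [e, h3, h4, one_mul]

theorem Sep.orderOf_eq {B B' : Subgroup G} (h : Sep B B') {a : G} (ha : a ∈ B ⊔ B') (ha1 : a ≠ 1) :
    orderOf a = 2 :=
  orderOf_eq_prime (h.sq_eq_one ha) ha1

section Normalizers

variable [Finite G]

theorem le_normalizer_PPIn_of_le {T C : Subgroup G} (h : T ≤ C) :
    T ≤ normalizer ((PPIn 2 C : Subgroup G) : Set G) :=
  (h.trans le_normalizer).trans (normalizer_le_normalizer_PPIn C)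

theorem Sep.le_centralizer_singleton {B B' : Subgroup G} (h : Sep B B') {a : G} (ha : a ∈ B ⊔ B') :
    B ≤ centralizer ({a} : Set G) := fun s hs =>
  mem_centralizer_singleton_iff.2 (h.comm_left ha hs)

theorem Sep.le_normalizer_Oo {B B' : Subgroup G} (h : Sep B B') {a : G} (ha : a ∈ B ⊔ B') :
    B ≤ normalizer ((Oo a : Subgroup G) : Set G) :=
  le_normalizer_PPIn_of_le (h.le_centralizer_singleton ha)

/-- `B` normalizes `O(C_G(B))`. -/
theorem Sep.le_normalizer_OB {B B' : Subgroup G} (h : Sep B B') :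
    B ≤ normalizer ((PPIn 2 (centralizer (B : Set G)) : Subgroup G) : Set G) :=
  le_normalizer_PPIn_of_le (fun x hx => Subgroup.mem_centralizer_iff.2 (fun y hy =>
    h.bcomm y hy x hx))

theorem card_Oo_odd (a : G) : (Nat.card (Oo a)).Coprime 2 := card_PPIn_coprime _

theorem coprime_four_of_le {Z : Subgroup G} {a : G} (hZ : Z ≤ Oo a) {B : Subgroup G}
    (hB : Nat.card B = 4) : (Nat.card B).Coprime (Nat.card Z) := by
  rw [hB, show (4 : ℕ) = 2 ^ 2 by norm_num]
  exact Nat.Coprime.pow_left 2 (Nat.Coprime.coprime_dvd_left (Subgroup.card_dvd_of_le hZ)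
    (card_Oo_odd a)).symm

theorem Sep.solvable {B B' : Subgroup G} (h : Sep B B') : Group.IsSolvable B :=
  Group.isSolvable_of_comm (fun x y => Subtype.ext (h.bcomm x x.2 y y.2))

end Normalizers

/-- Identity for commutators with a factor commuting with the first argument. -/
theorem comm_mul_right {r t g : G} (hg : r * g = g * r) : ⁅r, t * g⁆ = ⁅r, t⁆ := by
  simp only [commutatorElement_def]
  have hg' : g * r⁻¹ = r⁻¹ * g := by
    calc g * r⁻¹ = r⁻¹ * (r * g) * r⁻¹ := by group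
      _ = r⁻¹ * (g * r) * r⁻¹ := by rw [hg]
      _ = r⁻¹ * g := by group
  calc r * (t * g) * r⁻¹ * (t * g)⁻¹ = r * t * (g * r⁻¹) * g⁻¹ * t⁻¹ := by group
    _ = r * t * (r⁻¹ * g) * g⁻¹ * t⁻¹ := by rw [hg']
    _ = r * t * r⁻¹ * t⁻¹ := by group

/-- The four elements of a four-group. -/
theorem four_cases [Finite G] {B : Subgroup G} (hB : IsElementaryAbelian 2 B) (hc : Nat.card B = 4)
    {e f : G} (he : e ∈ B) (hf : f ∈ B) (he1 : e ≠ 1) (hf1 : f ≠ 1) (hef : f ≠ e) {s : G}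
    (hs : s ∈ B) : s = 1 ∨ s = e ∨ s = f ∨ s = e * f := by
  classical
  haveI := Fintype.ofFinite B
  have hesq : e * e = 1 := by
    have := hB.2 e he
    rwa [pow_two] at this
  let F : Finset B := {1, ⟨e, he⟩, ⟨f, hf⟩, ⟨e * f, B.mul_mem he hf⟩}
  have hn1 : (⟨e, he⟩ : B) ≠ 1 := fun h => he1 (congrArg Subtype.val h)
  have hn2 : (⟨f, hf⟩ : B) ≠ 1 := fun h => hf1 (congrArg Subtype.val h)
  have hn3 : (⟨e * f, B.mul_mem he hf⟩ : B) ≠ 1 := fun h => by
    have h1 : e * f = 1 := congrArg Subtype.val h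
    apply hef
    calc f = e * e * f := by rw [hesq, one_mul]
      _ = e * (e * f) := by group
      _ = e := by rw [h1, mul_one]
  have hn4 : (⟨e, he⟩ : B) ≠ ⟨f, hf⟩ := fun h => hef (congrArg Subtype.val h).symm
  have hn5 : (⟨e, he⟩ : B) ≠ ⟨e * f, B.mul_mem he hf⟩ := fun h => by
    have h1 : e = e * f := congrArg Subtype.val h
    exact hf1 (by simpa using h1)
  have hn6 : (⟨f, hf⟩ : B) ≠ ⟨e * f, B.mul_mem he hf⟩ := fun h => by
    have h1 : f = e * f := congrArg Subtype.val h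
    exact he1 (by simpa using h1)
  have hcard : F.card = 4 := by
    rw [Finset.card_insert_of_notMem, Finset.card_insert_of_notMem, Finset.card_insert_of_notMem,
      Finset.card_singleton]
    · simpa using hn6
    · simp only [Finset.mem_insert, Finset.mem_singleton, not_or]
      exact ⟨hn4, hn5⟩
    · simp only [Finset.mem_insert, Finset.mem_singleton, not_or]
      exact ⟨hn1.symm, hn2.symm, hn3.symm⟩
  have hF : F = Finset.univ := Finset.eq_univ_of_card F (by
    rw [hcard, ← hc, Nat.card_eq_fintype_card])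
  have hm : (⟨s, hs⟩ : B) ∈ F := hF ▸ Finset.mem_univ _
  simp only [F, Finset.mem_insert, Finset.mem_singleton] at hm
  rcases hm with h | h | h | h
  · exact Or.inl (congrArg Subtype.val h)
  · exact Or.inr (Or.inl (congrArg Subtype.val h))
  · exact Or.inr (Or.inr (Or.inl (congrArg Subtype.val h)))
  · exact Or.inr (Or.inr (Or.inr (congrArg Subtype.val h)))

section Main

variable [Finite G]

theorem le_normalizer_centralizer_aux {b : G} {B : Subgroup G}
    (hb : b ∈ normalizer ((B : Subgroup G) : Set G)) :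
    b ∈ normalizer ((centralizer (B : Set G) : Subgroup G) : Set G) := by
  have hle : zpowers b ≤ normalizer ((centralizer (B : Set G) : Subgroup G) : Set G) := by
    refine Cfsg.Agent.Lib.NCA8.MinAct.le_normalizer_centralizer (zpowers_le.2 hb)
  exact hle (mem_zpowers b)

theorem subgroupOf_le_PPIn_centralizer {a b : G} (hab : a ∈ centralizer ({b} : Set G)) :
    ((Oo a ⊓ centralizer ({b} : Set G)).subgroupOf (centralizer ({b} : Set G))) ≤
      PPIn 2 (centralizer ({(⟨a, hab⟩ : centralizer ({b} : Set G))} : Set (centralizer ({b} : Set G)))) := by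
  refine le_PPIn ?_ ?_ ?_
  · intro x hx
    have h1 : (x : G) ∈ centralizer ({a} : Set G) := PPIn_le _ (mem_inf.1 (mem_subgroupOf.1 hx)).1
    rw [mem_centralizer_singleton_iff] at h1 ⊢
    exact Subtype.ext h1
  · rw [Subgroup.le_normalizer_iff]
    intro u hu x hx
    have hu1 : (u : G) ∈ centralizer ({a} : Set G) := by
      rw [mem_centralizer_singleton_iff] at hu ⊢
      exact congrArg Subtype.val hu
    refine mem_subgroupOf.2 (mem_inf.2 ⟨?_, (u * x * u⁻¹).2⟩)
    exact conj_mem_of_le_normalizer (le_normalizer_PPIn_of_le le_rfl) hu1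
      (mem_inf.1 (mem_subgroupOf.1 hx)).1
  · rw [Nat.card_congr (Subgroup.subgroupOfEquivOfLe inf_le_right).toEquiv]
    exact Nat.Coprime.coprime_dvd_left (Subgroup.card_dvd_of_le inf_le_left) (card_Oo_odd a)

/-- A membership in the core of `C(b)`, from the subgroup of `C(b)`. -/
theorem mem_Oo_of_subgroupOf_le {b : G} {Y : Subgroup G}
    (hY : Y ≤ centralizer ({b} : Set G))
    (h : Y.subgroupOf (centralizer ({b} : Set G)) ≤ pPrimeCore 2 ↥(centralizer ({b} : Set G))) :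
    Y ≤ Oo b := by
  intro y hy
  exact ⟨⟨y, hY hy⟩, h (mem_subgroupOf.2 hy), rfl⟩

/-- Translating the hypothesis on commutators into `C(e)`. -/
theorem mem_Cb_of_comm_le {e : G} {K : Subgroup ↥(centralizer ({e} : Set G))} {S : Subgroup G}
    (hST : S ≤ centralizer ({e} : Set G))
    (h : ⁅K.map (centralizer ({e} : Set G)).subtype, S⁆ ≤ Oo e) {s : G} (hs : s ∈ S) :
    (⟨s, hST hs⟩ : centralizer ({e} : Set G)) ∈ Cb K := by
  refine mem_Cb_of ?_
  intro k hk
  have h1 : ((⁅k, (⟨s, hST hs⟩ : centralizer ({e} : Set G))⁆ : centralizer ({e} : Set G)) : G) ∈ Oo e :=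
    h (Subgroup.commutator_mem_commutator (mem_map_of_mem _ hk) hs)
  obtain ⟨w, hw, hw'⟩ := h1
  have h2 : w = ⁅k, (⟨s, hST hs⟩ : centralizer ({e} : Set G))⁆ := Subtype.ext hw'
  rw [← h2]
  exact hw

/-- **Lemma I.** -/
theorem comm_le_core {B B' : Subgroup G} (h : Sep B B') {a e : G} (ha : a ∈ B ⊔ B') (ha1 : a ≠ 1)
    (he : e ∈ B) (he1 : e ≠ 1) : ⁅Oo a ⊓ centralizer ({e} : Set G), B⁆ ≤ Oo e := by
  have heA : e ∈ B ⊔ B' := mem_sup_left he
  set T : Subgroup G := centralizer ({e} : Set G) with hT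
  have hBT : B ≤ T := h.le_centralizer_singleton heA
  have hB'T : B' ≤ T := fun y hy => mem_centralizer_singleton_iff.2 (h.comm e he y hy).symm
  have haT : a ∈ T := mem_centralizer_singleton_iff.2 (h.comm_left ha he).symm
  have hBX : B ≤ normalizer ((Oo a ⊓ T : Subgroup G) : Set G) := by
    rw [Subgroup.le_normalizer_iff]
    rintro s hs x ⟨hx1, hx2⟩
    exact ⟨conj_mem_of_le_normalizer (h.le_normalizer_Oo ha) hs hx1,
      T.mul_mem (T.mul_mem (hBT hs) hx2) (T.inv_mem (hBT hs))⟩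
  have hle : ⁅Oo a ⊓ T, B⁆ ≤ Oo a ⊓ T := commutator_le_of_le_normalizer hBX
  refine mem_Oo_of_subgroupOf_le (hle.trans inf_le_right) ?_
  set a' : T := ⟨a, haT⟩ with ha'def
  have ha'2 : orderOf a' = 2 := by
    rw [ha'def, Subgroup.orderOf_mk]
    exact h.orderOf_eq ha ha1
  have hY0 := subgroupOf_le_PPIn_centralizer haT
  refine le_core_of_forall ha'2 (fun x hx => hY0 (mem_subgroupOf.2 (hle (mem_subgroupOf.1 hx))))
    (fun K hK => ?_)
  -- reduce to generators
  have hgen : ⁅Oo a ⊓ T, B⁆ ≤ (Cb K).map T.subtype := by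
    rw [Subgroup.commutator_le]
    intro r hr s hs
    have hr' : (⟨r, hr.2⟩ : T) ∈ (Oo a ⊓ T).subgroupOf T := mem_subgroupOf.2 hr
    refine ⟨⁅(⟨r, hr.2⟩ : T), (⟨s, hBT hs⟩ : T)⁆, ?_, rfl⟩
    have hr'P := hY0 hr'
    have hnc := normalizer_zpowers_of_involution ha'2
    have hrN := mk_mem_normalizer (isPGroup_zpowers_of_involution ha'2)
      (show (⟨r, hr.2⟩ : T) ∈ PPIn 2 (normalizer ((zpowers a' : Subgroup T) : Set T)) by
        rw [hnc]; exact hr'P) hK
    rcases h.sep e heA he1 K hK with h1 | h2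
    · exact comm_mem_Cb hrN (mem_Cb_of_comm_le hBT h1 hs)
    obtain ⟨a₁, hA1, a₂, hA2, haeq⟩ := h.exists_decomp ha
    have hb2 : ∀ {y : G} (hy : y ∈ B'), (⟨y, hB'T hy⟩ : T) ∈ Cb K :=
      fun hy => mem_Cb_of_comm_le hB'T h2 hy
    have heT : e ∈ T := hBT he
    have heCb : (⟨e, heT⟩ : T) ∈ Cb K := by
      refine mem_Cb_of ?_
      intro k _
      have : ⁅k, (⟨e, heT⟩ : T)⁆ = 1 := by
        rw [commutatorElement_eq_one_iff_mul_comm]
        exact Subtype.ext (mem_centralizer_singleton_iff.1 k.2)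
      rw [this]
      exact Subgroup.one_mem _
    have hrA : (⟨r, hr.2⟩ : T) * a' = a' * ⟨r, hr.2⟩ :=
      Subtype.ext (mem_centralizer_singleton_iff.1 (PPIn_le _ hr.1))
    have hrE : (⟨r, hr.2⟩ : T) * ⟨e, heT⟩ = ⟨e, heT⟩ * ⟨r, hr.2⟩ :=
      Subtype.ext (mem_centralizer_singleton_iff.1 hr.2)
    by_cases hcase : a₁ = 1 ∨ a₁ = e
    · -- `a` centralizes `K` modulo the core
      have ha'Cb : a' ∈ Cb K := by
        have e1 : a' = (⟨a₁, hBT hA1⟩ : T) * ⟨a₂, hB'T hA2⟩ := Subtype.ext haeq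
        rw [e1]
        refine Subgroup.mul_mem _ ?_ (hb2 hA2)
        rcases hcase with rfl | rfl
        · exact Subgroup.one_mem _
        · exact heCb
      have hcz : centralizer ((zpowers a' : Subgroup T) : Set T) = centralizer ({a'} : Set T) := by
        ext x
        rw [mem_centralizer_singleton_iff, Subgroup.mem_centralizer_iff]
        constructor
        · intro hx
          exact (hx a' (mem_zpowers a')).symm
        · rintro hx _ ⟨k, rfl⟩
          exact ((Commute.zpow_right (show Commute x a' from hx) k).eq).symm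
      have L1 : ∀ r'' ∈ PPIn 2 (centralizer ({a'} : Set T)), r'' ∈ Cb K := fun r'' hr'' =>
        mem_Cb_of_mem_PPIn_centralizer (isPGroup_zpowers_of_involution ha'2)
          (by rw [hcz]; exact hr'') hK (zpowers_le.2 ha'Cb)
      have h3 := L1 _ hr'P
      have hconj : (⟨s, hBT hs⟩ : T) * (⟨r, hr.2⟩ : T)⁻¹ * (⟨s, hBT hs⟩ : T)⁻¹ ∈
          (Oo a ⊓ T).subgroupOf T := by
        refine mem_subgroupOf.2 ?_
        exact conj_mem_of_le_normalizer hBX hs (Subgroup.inv_mem _ hr)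
      have h4 := L1 _ (hY0 hconj)
      have e2 : ⁅(⟨r, hr.2⟩ : T), (⟨s, hBT hs⟩ : T)⁆ = (⟨r, hr.2⟩ : T) *
          ((⟨s, hBT hs⟩ : T) * (⟨r, hr.2⟩ : T)⁻¹ * (⟨s, hBT hs⟩ : T)⁻¹) := by
        rw [commutatorElement_def]
        group
      rw [e2]
      exact Subgroup.mul_mem _ h3 h4
    · push Not at hcase
      have hcm := h.comm a₁ hA1 a₂ hA2
      have hcmE := h.comm e he a₂ hA2
      have hB2inv : (⟨a₂, hB'T hA2⟩ : T)⁻¹ ∈ Cb K := Subgroup.inv_mem _ (hb2 hA2)
      rcases four_cases h.ea h.card he hA1 he1 hcase.1 hcase.2 hs with hs1 | hs1 | hs1 | hs1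
      · have e3 : (⟨s, hBT hs⟩ : T) = 1 := Subtype.ext hs1
        rw [e3, commutatorElement_one_right]
        exact Subgroup.one_mem _
      · have e3 : (⟨s, hBT hs⟩ : T) = ⟨e, heT⟩ := Subtype.ext hs1
        have : ⁅(⟨r, hr.2⟩ : T), (⟨e, heT⟩ : T)⁆ = 1 := by
          rw [commutatorElement_eq_one_iff_mul_comm]
          exact hrE
        rw [e3, this]
        exact Subgroup.one_mem _
      · have e3 : (⟨s, hBT hs⟩ : T) = (⟨a₂, hB'T hA2⟩ : T)⁻¹ * a' := by
          apply Subtype.ext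
          show s = a₂⁻¹ * a
          rw [hs1, haeq, hcm]
          group
        rw [e3, comm_mul_right hrA]
        exact comm_mem_Cb hrN hB2inv
      · have e3 : (⟨s, hBT hs⟩ : T) = (⟨a₂, hB'T hA2⟩ : T)⁻¹ * ((⟨e, heT⟩ : T) * a') := by
          apply Subtype.ext
          show s = a₂⁻¹ * (e * a)
          rw [hs1, haeq, hcm]
          calc e * a₁ = a₂⁻¹ * (a₂ * e) * a₁ := by group
            _ = a₂⁻¹ * (e * a₂) * a₁ := by rw [hcmE]
            _ = a₂⁻¹ * (e * (a₂ * a₁)) := by group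
        have hg : (⟨r, hr.2⟩ : T) * ((⟨e, heT⟩ : T) * a') = ((⟨e, heT⟩ : T) * a') * ⟨r, hr.2⟩ := by
          rw [← mul_assoc, hrE, mul_assoc, hrA, mul_assoc]
        rw [e3, comm_mul_right hg]
        exact comm_mem_Cb hrN hB2inv
  intro x hx
  obtain ⟨w, hw, hw'⟩ := hgen (mem_subgroupOf.1 hx)
  have : w = x := Subtype.ext hw'
  rw [← this]
  exact hw

/-- **Lemma II.** -/
theorem comm_inf_centralizer_le {B B' : Subgroup G} (h : Sep B B')
    {a : G} (ha : a ∈ B ⊔ B') (ha1 : a ≠ 1) (hft : Group.IsSolvable (⁅Oo a, B⁆ : Subgroup G)) :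
    ⁅Oo a, B⁆ ⊓ centralizer (B : Set G) ≤ PPIn 2 (centralizer (B : Set G)) := by
  haveI := h.ea.1
  have hBO := h.le_normalizer_Oo ha
  have hZO : (⁅Oo a, B⁆ : Subgroup G) ≤ Oo a := commutator_le_of_le_normalizer hBO
  have hcop := coprime_four_of_le hZO h.card
  have hcop' : (Nat.card B).Coprime (Nat.card (Oo a)) := coprime_four_of_le le_rfl h.card
  have hYA : ⁅(⁅Oo a, B⁆ : Subgroup G), B⁆ = ⁅Oo a, B⁆ :=
    commutator_commutator_eq hBO hcop' (Or.inl h.solvable)
  refine (fixed_le_DD (le_normalizer_commutator_right _ _) hcop hft hYA).trans ?_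
  refine iSup₂_le ?_
  rintro B₀ ⟨hB₀, a₀, ha₀, hsup⟩
  have hB₀ne : B₀ ≠ ⊥ := by
    rintro rfl
    rw [bot_sup_eq] at hsup
    have h1 : Nat.card (zpowers a₀) ∣ 2 := by
      rw [Nat.card_zpowers]
      exact orderOf_dvd_of_pow_eq_one (h.ea.2 a₀ ha₀)
    rw [hsup, h.card] at h1
    omega
  obtain ⟨⟨e, he⟩, he1⟩ := (Subgroup.ne_bot_iff_exists_ne_one).1 hB₀ne
  have he1' : e ≠ 1 := fun h' => he1 (Subtype.ext h')
  rintro t ⟨⟨-, htC⟩, ht⟩
  have hmono : ⁅(⁅Oo a, B⁆ : Subgroup G) ⊓ centralizer (B₀ : Set G), B⁆ ≤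
      ⁅Oo a ⊓ centralizer ({e} : Set G), B⁆ := by
    refine Subgroup.commutator_mono (inf_le_inf hZO (Subgroup.centralizer_le ?_)) le_rfl
    intro x hx
    rw [Set.mem_singleton_iff] at hx
    rw [hx]
    exact he
  have h1 := comm_le_core h ha ha1 (hB₀ he) he1' (hmono ht)
  have hCe : centralizer (B : Set G) ≤ centralizer ({e} : Set G) := by
    refine Subgroup.centralizer_le ?_
    intro x hx
    rw [Set.mem_singleton_iff] at hx
    rw [hx]
    exact hB₀ he
  have h2 : Oo e ⊓ centralizer (B : Set G) ≤ PPIn 2 (centralizer (B : Set G)) := by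
    refine le_PPIn inf_le_right ?_ ?_
    · rw [Subgroup.le_normalizer_iff]
      rintro c hc x ⟨hx1, hx2⟩
      exact ⟨conj_mem_of_le_normalizer (le_normalizer_PPIn_of_le hCe) hc hx1,
        Subgroup.mul_mem _ (Subgroup.mul_mem _ hc hx2) (Subgroup.inv_mem _ hc)⟩
    · exact Nat.Coprime.coprime_dvd_left (Subgroup.card_dvd_of_le inf_le_left) (card_Oo_odd e)
  exact h2 ⟨h1, htC⟩

/-- **(†)**. -/
theorem th_inf_centralizer_le {B B' : Subgroup G} (h : Sep B B')
    {a : G} (ha : a ∈ B ⊔ B') (ha1 : a ≠ 1) (hft : Group.IsSolvable (⁅Oo a, B⁆ : Subgroup G)) :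
    Th B a ⊓ centralizer (B : Set G) ≤ PPIn 2 (centralizer (B : Set G)) := by
  haveI := h.ea.1
  have hBO := h.le_normalizer_Oo ha
  have hZO : (⁅Oo a, B⁆ : Subgroup G) ≤ Oo a := commutator_le_of_le_normalizer hBO
  have hcop' : (Nat.card B).Coprime (Nat.card (Oo a)) := coprime_four_of_le le_rfl h.card
  have hBW : B ≤ normalizer ((Oo a ⊓ PPIn 2 (centralizer (B : Set G)) : Subgroup G) : Set G) := by
    rw [Subgroup.le_normalizer_iff]
    rintro s hs x ⟨hx1, hx2⟩
    exact ⟨conj_mem_of_le_normalizer hBO hs hx1, conj_mem_of_le_normalizer h.le_normalizer_OB hs hx2⟩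
  rintro y ⟨hy1, hy2⟩
  have hWN : (Oo a ⊓ PPIn 2 (centralizer (B : Set G)) : Subgroup G) ≤
      normalizer ((⁅Oo a, B⁆ : Subgroup G) : Set G) :=
    inf_le_left.trans (le_normalizer_commutator_left _ _)
  obtain ⟨k, hk, c, hc, rfl⟩ := exists_mul_of_mem_sup hWN hy1
  obtain ⟨x', hx', y', hy', e⟩ := exists_fixed_factor (K := Oo a) (A := B) _ _ hcop'
    (Or.inl h.solvable) hZO (le_normalizer_commutator_right _ _) hBW hy2 hk hc rfl
  rw [e]
  exact Subgroup.mul_mem _ (comm_inf_centralizer_le h ha ha1 hft hx') hy'.1.2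

/-- Elements of `O(C(B)) ∩ C(b)` act trivially on `p`-components of `C(b)` centralized by `B`. -/
theorem mem_Cb_of_OB {B B' : Subgroup G} (h : Sep B B') {b : G} (hb : b ∈ B ⊔ B')
    {K : Subgroup ↥(centralizer ({b} : Set G))} (hK : IsPComponent 2 K)
    (hKB : ⁅K.map (centralizer ({b} : Set G)).subtype, B⁆ ≤ Oo b) {w : G}
    (hw : w ∈ PPIn 2 (centralizer (B : Set G))) (hwb : w ∈ centralizer ({b} : Set G)) :
    (⟨w, hwb⟩ : centralizer ({b} : Set G)) ∈ Cb K := by
  set T : Subgroup G := centralizer ({b} : Set G) with hT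
  have hBT : B ≤ T := h.le_centralizer_singleton hb
  have hR : IsPGroup 2 (B.subgroupOf T) := by
    rw [IsPGroup.iff_card, Nat.card_congr (Subgroup.subgroupOfEquivOfLe hBT).toEquiv, h.card]
    exact ⟨2, by norm_num⟩
  refine mem_Cb_of_mem_PPIn_centralizer hR ?_ hK ?_
  · -- `O(C(B)) ∩ T` is normal in `C_T(B)`
    have hle : (PPIn 2 (centralizer (B : Set G)) ⊓ T).subgroupOf T ≤
        PPIn 2 (centralizer ((B.subgroupOf T : Subgroup T) : Set T)) := by
      refine le_PPIn ?_ ?_ ?_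
      · intro x hx
        refine Subgroup.mem_centralizer_iff.2 ?_
        intro r hr
        have h1 := PPIn_le _ (mem_inf.1 (mem_subgroupOf.1 hx)).1
        exact Subtype.ext (Subgroup.mem_centralizer_iff.1 h1 r hr)
      · rw [Subgroup.le_normalizer_iff]
        intro u hu x hx
        have hu1 : (u : G) ∈ centralizer (B : Set G) := by
          refine Subgroup.mem_centralizer_iff.2 ?_
          intro r hr
          exact congrArg Subtype.val (Subgroup.mem_centralizer_iff.1 hu ⟨r, hBT hr⟩ hr)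
        refine mem_subgroupOf.2 (mem_inf.2 ⟨?_, (u * x * u⁻¹).2⟩)
        exact conj_mem_of_le_normalizer (le_normalizer_PPIn_of_le le_rfl) hu1
          (mem_inf.1 (mem_subgroupOf.1 hx)).1
      · rw [Nat.card_congr (Subgroup.subgroupOfEquivOfLe inf_le_right).toEquiv]
        exact Nat.Coprime.coprime_dvd_left (Subgroup.card_dvd_of_le inf_le_left)
          (card_PPIn_coprime _)
    exact hle (mem_subgroupOf.2 ⟨hw, hwb⟩)
  · intro r hr
    exact mem_Cb_of_comm_le hBT hKB hr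

/-- The sublemma of Step 1. -/
theorem th_inf_le_Cb {B B' : Subgroup G} (h : Sep B B') {a b : G} (ha : a ∈ B ⊔ B') (ha1 : a ≠ 1)
    (hb : b ∈ B ⊔ B') (hb1 : b ≠ 1)
    (hft : Group.IsSolvable (⁅Oo a, B⁆ : Subgroup G))
    (habT : a ∈ centralizer ({b} : Set G))
    {K : Subgroup ↥(centralizer ({b} : Set G))} (hK : IsPComponent 2 K)
    (hKB : ⁅K.map (centralizer ({b} : Set G)).subtype, B⁆ ≤ Oo b) :
    (Th B a ⊓ centralizer ({b} : Set G)).subgroupOf (centralizer ({b} : Set G)) ≤ Cb K := by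
  revert K
  set T : Subgroup G := centralizer ({b} : Set G) with hT
  intro K hK hKB
  have hBT : B ≤ T := h.le_centralizer_singleton hb
  have hBO := h.le_normalizer_Oo ha
  have hZO : (⁅Oo a, B⁆ : Subgroup G) ≤ Oo a := commutator_le_of_le_normalizer hBO
  have hbord := h.orderOf_eq hb hb1
  have hzp : IsPGroup 2 (zpowers b : Subgroup G) := isPGroup_zpowers_of_involution hbord
  have hzpcard : Nat.card (zpowers b : Subgroup G) = 2 := by rw [Nat.card_zpowers, hbord]
  have hcopb : (Nat.card (zpowers b : Subgroup G)).Coprime (Nat.card (Oo a)) := by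
    rw [hzpcard]
    exact (card_Oo_odd a).symm
  have hzsolv : Group.IsSolvable (zpowers b : Subgroup G) := inferInstance
  have hzT : (zpowers b : Subgroup G) ≤ T := by
    rw [zpowers_le]
    exact mem_centralizer_singleton_iff.2 rfl
  have hbA : b ∈ normalizer ((Oo a : Subgroup G) : Set G) := by
    have : b ∈ centralizer ({a} : Set G) :=
      mem_centralizer_singleton_iff.2 (mem_centralizer_singleton_iff.1 habT).symm
    exact le_normalizer_PPIn_of_le le_rfl this
  have hbB : b ∈ normalizer ((B : Subgroup G) : Set G) := by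
    rw [mem_normalizer_iff]
    intro s
    have hc : ∀ s : G, s ∈ B → b * s * b⁻¹ = s := fun s hs => by
      rw [← h.comm_left hb hs]
      group
    constructor
    · intro hs
      rw [hc s hs]
      exact hs
    · intro hs
      have h1 := hc _ hs
      have h2 : b * (b * s * b⁻¹) * b⁻¹ = b * s * b⁻¹ := h1
      have h3 : b * s * b⁻¹ = s := by
        have h4 : b * (b * s * b⁻¹) = b * s := mul_right_cancel h2
        exact mul_left_cancel h4
      rw [h3] at hs
      exact hs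
  have hbZ : (zpowers b : Subgroup G) ≤ normalizer ((⁅Oo a, B⁆ : Subgroup G) : Set G) := by
    rw [zpowers_le]
    exact (le_normalizer_commutator_of_le (T := zpowers b) (zpowers_le.2 hbA) (zpowers_le.2 hbB))
      (mem_zpowers b)
  have hbW : (zpowers b : Subgroup G) ≤
      normalizer ((Oo a ⊓ PPIn 2 (centralizer (B : Set G)) : Subgroup G) : Set G) := by
    rw [zpowers_le, mem_normalizer_iff]
    intro x
    have hbCB : b ∈ normalizer ((PPIn 2 (centralizer (B : Set G)) : Subgroup G) : Set G) := by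
      refine normalizer_le_normalizer_PPIn _ ?_
      refine le_normalizer_centralizer_aux hbB
    have h1 := mem_normalizer_iff.1 hbA x
    have h2 := mem_normalizer_iff.1 hbCB x
    simp only [mem_inf, h1, h2]
  rintro ⟨y, hyT⟩ hy
  obtain ⟨hy1, -⟩ := mem_inf.1 (mem_subgroupOf.1 hy)
  have hWN : (Oo a ⊓ PPIn 2 (centralizer (B : Set G)) : Subgroup G) ≤
      normalizer ((⁅Oo a, B⁆ : Subgroup G) : Set G) :=
    inf_le_left.trans (le_normalizer_commutator_left _ _)
  have hyz : y ∈ centralizer ((zpowers b : Subgroup G) : Set G) := by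
    refine Subgroup.mem_centralizer_iff.2 ?_
    rintro _ ⟨k, rfl⟩
    exact ((Commute.zpow_left (show Commute b y from (mem_centralizer_singleton_iff.1 hyT).symm) k).eq)
  obtain ⟨k, hk, c, hc, e⟩ := exists_mul_of_mem_sup hWN hy1
  obtain ⟨x', hx', y', hy', e'⟩ := exists_fixed_factor (K := Oo a) (A := zpowers b) _ _ hcopb
    (Or.inl hzsolv) hZO hbZ hbW hyz hk hc e
  have hcent : centralizer ((zpowers b : Subgroup G) : Set G) ≤ T := by
    refine Subgroup.centralizer_le ?_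
    intro x hx
    rw [Set.mem_singleton_iff] at hx
    rw [hx]
    exact mem_zpowers b
  have hx'T := hcent hx'.2
  have hy'T := hcent hy'.2
  have hy2 : (⟨y', hy'T⟩ : T) ∈ Cb K := mem_Cb_of_OB h hb hK hKB hy'.1.2 hy'T
  have he : (⟨y, hyT⟩ : T) = ⟨x', hx'T⟩ * ⟨y', hy'T⟩ := Subtype.ext e'
  rw [he]
  refine Subgroup.mul_mem _ ?_ hy2
  -- the commutator part
  set Zb : Subgroup G := ⁅Oo a, B⁆ ⊓ T with hZb
  have hBZb : B ≤ normalizer ((Zb : Subgroup G) : Set G) := by
    rw [Subgroup.le_normalizer_iff]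
    rintro s hs x ⟨hx1, hx2⟩
    exact ⟨conj_mem_of_le_normalizer (le_normalizer_commutator_right _ _) hs hx1,
      T.mul_mem (T.mul_mem (hBT hs) hx2) (T.inv_mem (hBT hs))⟩
  have hcopZ : (Nat.card B).Coprime (Nat.card Zb) :=
    coprime_four_of_le (inf_le_left.trans hZO) h.card
  have hfac := commutator_sup_fixed hBZb hcopZ (Or.inl h.solvable)
  have hx'Z : x' ∈ Zb := ⟨hx'.1, hx'T⟩
  rw [← hfac] at hx'Z
  have hFN : (Zb ⊓ centralizer (B : Set G) : Subgroup G) ≤
      normalizer ((⁅Zb, B⁆ : Subgroup G) : Set G) :=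
    inf_le_left.trans (le_normalizer_commutator_left _ _)
  obtain ⟨u, hu, v, hv, e2⟩ := exists_mul_of_mem_sup hFN hx'Z
  have huT : u ∈ T := (commutator_le_of_le_normalizer hBZb hu).2
  have hvT : v ∈ T := hv.1.2
  have he2 : (⟨x', hx'T⟩ : T) = ⟨u, huT⟩ * ⟨v, hvT⟩ := Subtype.ext e2
  rw [he2]
  refine Subgroup.mul_mem _ ?_ ?_
  · -- generators of the commutator
    have hgen : ⁅Zb, B⁆ ≤ (Cb K).map T.subtype := by
      rw [Subgroup.commutator_le]
      intro r hr s hs
      refine ⟨⁅(⟨r, hr.2⟩ : T), (⟨s, hBT hs⟩ : T)⁆, ?_, rfl⟩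
      have hr' : (⟨r, hr.2⟩ : T) ∈ (Oo a ⊓ T).subgroupOf T :=
        mem_subgroupOf.2 ⟨hZO hr.1, hr.2⟩
      have hY0 := subgroupOf_le_PPIn_centralizer habT
      set a' : T := ⟨a, habT⟩ with ha'def
      have ha'2 : orderOf a' = 2 := by
        rw [ha'def, Subgroup.orderOf_mk]
        exact h.orderOf_eq ha ha1
      have hnc := normalizer_zpowers_of_involution ha'2
      have hrN := mk_mem_normalizer (isPGroup_zpowers_of_involution ha'2)
        (show (⟨r, hr.2⟩ : T) ∈ PPIn 2 (normalizer ((zpowers a' : Subgroup T) : Set T)) by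
          rw [hnc]; exact hY0 hr') hK
      exact comm_mem_Cb hrN (mem_Cb_of_comm_le hBT hKB hs)
    obtain ⟨w, hw, hw'⟩ := hgen hu
    have : w = ⟨u, huT⟩ := Subtype.ext hw'
    rw [← this]
    exact hw
  · exact mem_Cb_of_OB h hb hK hKB
      (comm_inf_centralizer_le h ha ha1 hft ⟨hv.1.1, hv.2⟩) hvT

theorem Sep.comm_all {B B' : Subgroup G} (h : Sep B B') {a b : G} (ha : a ∈ B ⊔ B')
    (hb : b ∈ B ⊔ B') : a * b = b * a := by
  obtain ⟨a₁, h1, a₂, h2, rfl⟩ := h.exists_decomp ha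
  have h3 := h.comm_left hb h1
  have h4 := h.symm.comm_left (a := b) (by rwa [sup_comm]) h2
  calc a₁ * a₂ * b = a₁ * (a₂ * b) := by group
    _ = a₁ * (b * a₂) := by rw [h4]
    _ = (a₁ * b) * a₂ := by group
    _ = b * (a₁ * a₂) := by rw [h3]; group

theorem Th_le_Oo {B B' : Subgroup G} (h : Sep B B') {a : G} (ha : a ∈ B ⊔ B') : Th B a ≤ Oo a :=
  sup_le (commutator_le_of_le_normalizer (h.le_normalizer_Oo ha)) inf_le_left

/-- **Step 1.** -/
theorem theta_inf_le_core {B B' : Subgroup G} (h : Sep B B') {a b : G} (ha : a ∈ B ⊔ B')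
    (ha1 : a ≠ 1) (hb : b ∈ B ⊔ B') (hb1 : b ≠ 1)
    (hft : Group.IsSolvable (⁅Oo a, B⁆ : Subgroup G))
    (hft' : Group.IsSolvable (⁅Oo a, B'⁆ : Subgroup G)) :
    (Th B a ⊓ Th B' a) ⊓ centralizer ({b} : Set G) ≤ Oo b := by
  have habT : a ∈ centralizer ({b} : Set G) := mem_centralizer_singleton_iff.2 (h.comm_all ha hb)
  refine mem_Oo_of_subgroupOf_le inf_le_right ?_
  have ha'2 : orderOf (⟨a, habT⟩ : centralizer ({b} : Set G)) = 2 := by
    rw [Subgroup.orderOf_mk]
    exact h.orderOf_eq ha ha1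
  have hY0 := subgroupOf_le_PPIn_centralizer habT
  have ha' : a ∈ B' ⊔ B := by rwa [sup_comm]
  have hb' : b ∈ B' ⊔ B := by rwa [sup_comm]
  refine le_core_of_forall ha'2 ?_ (fun K hK => ?_)
  · intro x hx
    obtain ⟨⟨h1, -⟩, h3⟩ := mem_inf.1 (mem_subgroupOf.1 hx)
    exact hY0 (mem_subgroupOf.2 ⟨Th_le_Oo h ha h1, h3⟩)
  · intro x hx
    obtain ⟨⟨h1, h2⟩, h3⟩ := mem_inf.1 (mem_subgroupOf.1 hx)
    rcases h.sep b hb hb1 K hK with h4 | h4
    · exact th_inf_le_Cb h ha ha1 hb hb1 hft habT hK h4 (mem_subgroupOf.2 ⟨h1, h3⟩)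
    · exact th_inf_le_Cb h.symm ha' ha1 hb' hb1 hft' habT hK h4 (mem_subgroupOf.2 ⟨h2, h3⟩)

theorem le_normalizer_sup' {T X Y : Subgroup G} (hX : T ≤ normalizer (X : Set G))
    (hY : T ≤ normalizer (Y : Set G)) : T ≤ normalizer ((X ⊔ Y : Subgroup G) : Set G) := by
  rw [Subgroup.le_normalizer_iff]
  intro t ht y hy
  have hle : X ⊔ Y ≤ (X ⊔ Y).comap (MulAut.conj t).toMonoidHom := by
    refine sup_le (fun z hz => ?_) (fun z hz => ?_)
    · exact (le_sup_left : X ≤ X ⊔ Y) (conj_mem_of_le_normalizer hX ht hz)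
    · exact (le_sup_right : Y ≤ X ⊔ Y) (conj_mem_of_le_normalizer hY ht hz)
  exact hle hy

theorem le_normalizer_inf' {T X Y : Subgroup G} (hX : T ≤ normalizer (X : Set G))
    (hY : T ≤ normalizer (Y : Set G)) : T ≤ normalizer ((X ⊓ Y : Subgroup G) : Set G) := by
  rw [Subgroup.le_normalizer_iff]
  rintro t ht y ⟨hy1, hy2⟩
  exact ⟨conj_mem_of_le_normalizer hX ht hy1, conj_mem_of_le_normalizer hY ht hy2⟩

/-- Elements of `A` normalize `Th B a`. -/
theorem zpowers_le_normalizer_Th {B B' : Subgroup G} (h : Sep B B') {a b : G} (ha : a ∈ B ⊔ B')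
    (hb : b ∈ B ⊔ B') : (zpowers b : Subgroup G) ≤ normalizer ((Th B a : Subgroup G) : Set G) := by
  have hbC : b ∈ centralizer ({a} : Set G) := mem_centralizer_singleton_iff.2 (h.comm_all hb ha)
  have hb1 : (zpowers b : Subgroup G) ≤ normalizer ((Oo a : Subgroup G) : Set G) :=
    zpowers_le.2 (le_normalizer_PPIn_of_le le_rfl hbC)
  have hbCB : b ∈ centralizer (B : Set G) := Subgroup.mem_centralizer_iff.2 (fun s hs =>
    h.comm_left hb hs)
  have hb2 : (zpowers b : Subgroup G) ≤ normalizer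
      ((PPIn 2 (centralizer (B : Set G)) : Subgroup G) : Set G) :=
    zpowers_le.2 (le_normalizer_PPIn_of_le le_rfl hbCB)
  have hb3 : (zpowers b : Subgroup G) ≤ normalizer ((B : Subgroup G) : Set G) := by
    rw [zpowers_le, mem_normalizer_iff]
    intro s
    have hc : ∀ s : G, s ∈ B → b * s * b⁻¹ = s := fun s hs => by
      rw [← h.comm_left hb hs]
      group
    constructor
    · intro hs
      rw [hc s hs]
      exact hs
    · intro hs
      have h1 := hc _ hs
      have h2 : b * (b * s * b⁻¹) * b⁻¹ = b * s * b⁻¹ := h1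
      have h3 : b * s * b⁻¹ = s := by
        have h4 : b * (b * s * b⁻¹) = b * s := mul_right_cancel h2
        exact mul_left_cancel h4
      rw [h3] at hs
      exact hs
  exact le_normalizer_sup' (le_normalizer_commutator_of_le hb1 hb3) (le_normalizer_inf' hb1 hb2)

/-- **Step 2.** -/
theorem theta_balance {B B' : Subgroup G} (h : Sep B B') {a b : G} (ha : a ∈ B ⊔ B')
    (ha1 : a ≠ 1) (hb : b ∈ B ⊔ B') (hb1 : b ≠ 1)
    (hft : Group.IsSolvable (⁅Oo a, B⁆ : Subgroup G))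
    (hft' : Group.IsSolvable (⁅Oo a, B'⁆ : Subgroup G)) {x : G}
    (hx : x ∈ (Th B a ⊓ Th B' a) ⊓ centralizer ({b} : Set G)) : x ∈ Th B b := by
  have hx1 := theta_inf_le_core h ha ha1 hb hb1 hft hft' hx
  set Q : Subgroup G := Th B a ⊓ Oo b with hQ
  have hBTh : B ≤ normalizer ((Th B a : Subgroup G) : Set G) := fun s hs =>
    zpowers_le_normalizer_Th h ha (mem_sup_left hs) (mem_zpowers s)
  have hBQ : B ≤ normalizer ((Q : Subgroup G) : Set G) :=
    le_normalizer_inf' hBTh (h.le_normalizer_Oo hb)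
  have hfac := commutator_sup_fixed hBQ (coprime_four_of_le inf_le_right h.card)
    (Or.inl h.solvable)
  have hxQ : x ∈ Q := ⟨hx.1.1, hx1⟩
  rw [← hfac] at hxQ
  have hFN : (Q ⊓ centralizer (B : Set G) : Subgroup G) ≤
      normalizer ((⁅Q, B⁆ : Subgroup G) : Set G) :=
    inf_le_left.trans (le_normalizer_commutator_left _ _)
  obtain ⟨u, hu, v, hv, rfl⟩ := exists_mul_of_mem_sup hFN hxQ
  refine Subgroup.mul_mem_sup (Subgroup.commutator_mono inf_le_right le_rfl hu) ⟨hv.1.2, ?_⟩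
  exact th_inf_centralizer_le h ha ha1 hft ⟨hv.1.1, hv.2⟩

/-- **Goldschmidt's functor**, given solvability of odd order groups. -/
theorem isSignalizerFunctor (ft : ∀ Z : Subgroup G, Odd (Nat.card Z) → Group.IsSolvable Z)
    {A₁ A₂ : Subgroup G} (hcs : IsCoreSeparated A₁ A₂) :
    IsSignalizerFunctor 2 (A₁ ⊔ A₂) (fun a => Th A₁ a ⊓ Th A₂ a) := by
  have h := sep_of_coreSeparated hcs
  have hsolv : ∀ (a : G) (B : Subgroup G), (⁅Oo a, B⁆ : Subgroup G) ≤ Oo a →
      Group.IsSolvable (⁅Oo a, B⁆ : Subgroup G) := by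
    intro a B hle
    refine ft _ ?_
    have h1 := Nat.Coprime.coprime_dvd_left (Subgroup.card_dvd_of_le hle) (card_Oo_odd a)
    exact Nat.coprime_two_right.1 h1
  have hft : ∀ {a : G}, a ∈ A₁ ⊔ A₂ → Group.IsSolvable (⁅Oo a, A₁⁆ : Subgroup G) := fun ha =>
    hsolv _ _ (commutator_le_of_le_normalizer (h.le_normalizer_Oo ha))
  have hft' : ∀ {a : G}, a ∈ A₁ ⊔ A₂ → Group.IsSolvable (⁅Oo a, A₂⁆ : Subgroup G) := fun ha =>
    hsolv _ _ (commutator_le_of_le_normalizer (h.symm.le_normalizer_Oo (by rwa [sup_comm])))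
  refine ⟨?_, ?_, ?_, ?_⟩
  · intro a ha _
    exact (inf_le_left.trans (Th_le_Oo h ha)).trans (PPIn_le _)
  · intro a ha _ hdvd
    have h1 : Nat.card ((Th A₁ a ⊓ Th A₂ a : Subgroup G)) ∣ Nat.card (Oo a) :=
      Subgroup.card_dvd_of_le (inf_le_left.trans (Th_le_Oo h ha))
    have h2 := Nat.Coprime.coprime_dvd_left h1 (card_Oo_odd a)
    have h3 := Nat.eq_one_of_dvd_coprimes h2 hdvd dvd_rfl
    omega
  · intro a ha _ b hb x hx
    have ha' : a ∈ A₂ ⊔ A₁ := by rwa [sup_comm]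
    have hb' : b ∈ A₂ ⊔ A₁ := by rwa [sup_comm]
    exact ⟨conj_mem_of_le_normalizer (zpowers_le_normalizer_Th h ha hb) (mem_zpowers b) hx.1,
      conj_mem_of_le_normalizer (zpowers_le_normalizer_Th h.symm ha' hb') (mem_zpowers b) hx.2⟩
  · intro a ha ha1 b hb hb1 x hx
    have ha' : a ∈ A₂ ⊔ A₁ := by rwa [sup_comm]
    have hb' : b ∈ A₂ ⊔ A₁ := by rwa [sup_comm]
    refine ⟨theta_balance h ha ha1 hb hb1 (hft ha) (hft' ha) hx, ?_⟩
    exact theta_balance h.symm ha' ha1 hb' hb1 (hft' ha) (hft ha) ⟨⟨hx.1.2, hx.1.1⟩, hx.2⟩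

end Main

end Cfsg.Agent.Lib.GoldGen.Functor
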